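import Cfsg.Agent.CentralExt.OrthMult.Descend

/-!
In a central extension of the Eichler group the lifts of the Siegel transformations attached to
one singular vector commute.
-/

set_option autoImplicit false
set_option linter.unusedSectionVars false

namespace Cfsg.Agent.CentralExt.OrthMult

open QuadraticMap Module Cfsg.Agent.Classical Cfsg.Agent.OrthGen
open scoped commutatorElement

universe u v w

variable {F : Type u} [Field F] {V : Type v} [AddCommGroup V] [Module F V]
  {Q : QuadraticForm F V} {E : Type w} [Group E]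

/-- Additive on the orthogonal of `u`. -/
def AddOn (Q : QuadraticForm F V) (u : V) (δ : V → E) : Prop :=
  ∀ a b, polar Q u a = 0 → polar Q u b = 0 → δ (a + b) = δ a * δ b

theorem AddOn.zero {u : V} {δ : V → E} (h : AddOn Q u δ) : δ 0 = 1 := by
  have h1 := h 0 0 (by simp) (by simp)
  rw [add_zero] at h1
  exact mul_eq_left.1 h1.symm

theorem AddOn.neg {u : V} {δ : V → E} (h : AddOn Q u δ) {a : V} (ha : polar Q u a = 0) :
    δ (-a) = (δ a)⁻¹ := by
  refine (inv_eq_of_mul_eq_one_right ?_).symm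
  rw [← h a (-a) ha (by rw [polar_neg_right, ha, neg_zero]), add_neg_cancel, h.zero]

theorem AddOn.pow {u : V} {δ : V → E} (h : AddOn Q u δ) {a : V} (ha : polar Q u a = 0) :
    ∀ n : ℕ, δ a ^ n = δ ((n : F) • a)
  | 0 => by rw [pow_zero, Nat.cast_zero, zero_smul, h.zero]
  | n + 1 => by
    rw [pow_succ, h.pow ha n, Nat.cast_succ, add_smul, one_smul,
      h _ _ (by rw [polar_smul_right, ha, smul_zero]) ha]

/-- In odd characteristic an additive function takes no involution as a value. -/
theorem AddOn.eq_one_of_sq [Finite F] (h2 : (2 : F) ≠ 0) {u : V} {δ : V → E} (h : AddOn Q u δ)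
    {a : V} (ha : polar Q u a = 0) (hsq : δ a * δ a = 1) : δ a = 1 := by
  obtain ⟨p, hp⟩ := CharP.exists F
  rcases CharP.char_is_prime_or_zero F p with hpr | rfl
  · have hne : p ≠ 2 := by
      rintro rfl
      exact h2 (CharP.cast_eq_zero F 2)
    obtain ⟨k, hk⟩ := hpr.odd_of_ne_two hne
    have e := h.pow ha p
    rw [CharP.cast_eq_zero, zero_smul, h.zero, hk, pow_succ, pow_mul, _root_.sq, hsq, one_pow, one_mul] at e
    exact e
  · exact absurd (Finite.of_injective (fun n : ℕ => (n : F)) (CharP.charP_to_charZero F).cast_injective)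
      (not_finite_iff_infinite.2 inferInstance)

variable [FiniteDimensional F V] [Finite F]

theorem exists_outside (hA : Amb Q) {u y : V} (h : Adj Q u y) :
    ∃ z, Q z = 0 ∧ polar Q u z = 0 ∧ polar Q y z = 0 ∧ LinearIndependent F ![u, y, z] := by
  obtain ⟨v₁, hv₁⟩ := exists_values hA.bn h.indep ![1, 0]
  obtain ⟨w₁, hw₁⟩ := exists_values hA.bn h.indep ![0, 1]
  obtain ⟨z, hz0, hz, hp⟩ := exists_perp_sing hA.bn ![u, y, v₁, w₁] hA.dim
  refine ⟨z, hz, hp 0, hp 1, ?_⟩
  rw [Fintype.linearIndependent_iff]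
  intro g hg
  rw [Fin.sum_univ_three] at hg
  simp only [Matrix.cons_val_zero, Matrix.cons_val_one, Matrix.cons_val_two, Matrix.head_cons,
    Matrix.tail_cons] at hg
  have e1 := congrArg (fun x => polar Q x v₁) hg
  have e2 := congrArg (fun x => polar Q x w₁) hg
  simp only [polar_add_left, polar_smul_left, show polar Q u v₁ = 1 from hv₁ 0,
    show polar Q y v₁ = 0 from hv₁ 1, show polar Q u w₁ = 0 from hw₁ 0,
    show polar Q y w₁ = 1 from hw₁ 1, show polar Q z v₁ = 0 from (polar_comm Q z v₁).trans (hp 2),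
    show polar Q z w₁ = 0 from (polar_comm Q z w₁).trans (hp 3), polar_zero_left, smul_eq_mul, mul_one,
    mul_zero, add_zero, zero_add] at e1 e2
  rw [e1, e2, zero_smul, zero_smul, zero_add, zero_add] at hg
  have e3 := (smul_eq_zero.1 hg).resolve_right hz0
  intro i; fin_cases i <;> assumption

/-- Additive functions invariant under the Siegel transformations of `y` kill its orthogonal. -/
theorem eq_one_of_invariant (hA : Amb Q) {u y : V} (h : Adj Q u y) {δ : V → E} (hadd : AddOn Q u δ)
    (hinv : ∀ (x : V) (hx : polar Q y x = 0), polar Q u x = 0 → ∀ a, polar Q u a = 0 →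
      δ ((siegel Q h.right hx : V ≃ₗ[F] V) a) = δ a)
    {x : V} (hux : polar Q u x = 0) (hyx : polar Q y x = 0) : δ x = 1 := by
  obtain ⟨v, hv⟩ := exists_values hA.bn h.indep ![0, 1]
  have huv : polar Q u v = 0 := hv 0
  have hyv : polar Q y v = 1 := hv 1
  have hy : ∀ k : F, polar Q u (k • y) = 0 := fun k => by rw [polar_smul_right, h.orth, smul_zero]
  have key : ∀ x, polar Q u x = 0 → polar Q y x = 0 → δ x = δ ((polar Q x v + Q x) • y) := by
    intro x hux hyx
    have e := hinv x hyx hux v huv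
    rw [siegel_apply, hyv, one_smul, mul_one, show v + x - polar Q x v • y - Q x • y =
      v + (x + (-(polar Q x v + Q x)) • y) by module, hadd _ _ huv (by
        rw [polar_add_right, hux, hy, add_zero]), mul_eq_left, hadd _ _ hux (hy _), neg_smul,
      hadd.neg (hy _), mul_inv_eq_one] at e
    exact e
  have h2Q : ∀ x, polar Q u x = 0 → polar Q y x = 0 → δ ((2 * Q x) • y) = 1 := by
    intro x hux hyx
    have e1 := key x hux hyx
    have e2 := key (-x) (by rw [polar_neg_right, hux, neg_zero]) (by rw [polar_neg_right, hyx, neg_zero])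
    rw [hadd.neg hux, QuadraticMap.map_neg, polar_neg_left] at e2
    rw [show (2 * Q x) • y = (polar Q x v + Q x) • y + (-polar Q x v + Q x) • y by module,
      hadd _ _ (hy _) (hy _), ← e1, ← e2, mul_inv_cancel]
  have hall : ∀ k : F, δ (k • y) = 1 := by
    intro k
    obtain ⟨z, hz, huz, hyz, hi⟩ := exists_outside hA h
    obtain ⟨x₂, hx₂⟩ := exists_values hA.bn hi ![0, 0, k / 2]
    have a1 : polar Q u x₂ = 0 := hx₂ 0
    have a2 : polar Q y x₂ = 0 := hx₂ 1
    have a3 : polar Q z x₂ = k / 2 := hx₂ 2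
    have e := h2Q (z + x₂) (by rw [polar_add_right, huz, a1, add_zero]) (by rw [polar_add_right, hyz, a2, add_zero])
    rwa [qf_add, hz, zero_add, a3, mul_add, mul_div_cancel₀ _ hA.two, add_smul, hadd _ _ (hy _) (hy _),
      h2Q x₂ a1 a2, one_mul] at e
  rw [key x hux hyx, hall]

/-- Additive functions invariant under a vector stabiliser are trivial. -/
theorem eq_one_of_invariant_all (hA : Amb Q) {u : V} (hu : Q u = 0) (hu0 : u ≠ 0) {δ : V → E}
    (hadd : AddOn Q u δ)
    (hinv : ∀ (y x : V) (hy : Q y = 0) (hx : polar Q y x = 0), polar Q u y = 0 → polar Q u x = 0 →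
      ∀ a, polar Q u a = 0 → δ ((siegel Q hy hx : V ≃ₗ[F] V) a) = δ a)
    {a : V} (ha : polar Q u a = 0) : δ a = 1 := by
  obtain ⟨u', hu'⟩ := exists_dual hA.bn hu0
  obtain ⟨y, hy0, hy, hp⟩ := exists_perp_sing hA.bn ![u, a, u'] (by have := hA.dim; omega)
  have hadj : Adj Q u y := Adj.mk' hu hy (hp 0) hu0 (not_smul_of_dual hu' (hp 2) hy0)
  exact eq_one_of_invariant hA hadj hadd (fun x hx hux b hb => hinv y x hy hx (hp 0) hux b hb) ha
    ((polar_comm Q y a).trans (hp 1))

theorem siegel_fix_self {u a : V} (hu : Q u = 0) (ha : polar Q u a = 0) :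
    (siegel Q hu ha : V ≃ₗ[F] V) u = u := by
  rw [siegel_apply, polar_self_of_sing hu, polar_comm Q a u, ha]; simp

/-- Commutators of lifts do not depend on the lifts. -/
theorem comm_eq {G : Type*} [Group G] {τ : E →* G} (hc : τ.ker ≤ Subgroup.center E) {x x' y y' : E}
    (hx : τ x = τ x') (hy : τ y = τ y') : ⁅x, y⁆ = ⁅x', y'⁆ := by
  obtain ⟨c, hc', rfl⟩ : ∃ c ∈ τ.ker, x = x' * c :=
    ⟨x'⁻¹ * x, by rw [MonoidHom.mem_ker, map_mul, map_inv, hx, inv_mul_cancel], by group⟩
  obtain ⟨d, hd', rfl⟩ : ∃ d ∈ τ.ker, y = y' * d :=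
    ⟨y'⁻¹ * y, by rw [MonoidHom.mem_ker, map_mul, map_inv, hy, inv_mul_cancel], by group⟩
  have h1 : ∀ g, c * g = g * c := fun g => (Subgroup.mem_center_iff.1 (hc hc') g).symm
  have h2 : ∀ g, d * g = g * d := fun g => (Subgroup.mem_center_iff.1 (hc hd') g).symm
  simp only [commutatorElement_def, mul_inv_rev]
  calc x' * c * (y' * d) * (c⁻¹ * x'⁻¹) * (d⁻¹ * y'⁻¹)
      = x' * (c * (y' * d)) * c⁻¹ * x'⁻¹ * d⁻¹ * y'⁻¹ := by group
    _ = x' * y' * (d * x'⁻¹) * d⁻¹ * y'⁻¹ := by rw [h1 (y' * d)]; group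
    _ = x' * y' * x'⁻¹ * y'⁻¹ := by rw [h2 x'⁻¹]; group

/-- Lifts of Siegel transformations attached to one vector commute. -/
theorem commute_lifts (hA : Amb Q) {τ : E →* OQ Q} (hc : τ.ker ≤ Subgroup.center E)
    (hsurj : ∀ g ∈ EQ Q, ∃ e, τ e = g) {u : V} (hu : Q u = 0) (hu0 : u ≠ 0) {a b : V}
    (ha : polar Q u a = 0) (hb : polar Q u b = 0) {x y : E} (hx : τ x = siegel Q hu ha)
    (hy : τ y = siegel Q hu hb) : Commute x y := by
  classical
  choose! L hL using fun a (h : polar Q u a = 0) => hsurj _ (siegel_mem_EQ Q hu h)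
  set B : V → V → E := fun a b => ⁅L a, L b⁆ with hB
  have hBeq : ∀ {a b : V} (ha : polar Q u a = 0) (hb : polar Q u b = 0) {x y : E},
      τ x = siegel Q hu ha → τ y = siegel Q hu hb → ⁅x, y⁆ = B a b := fun {a b} ha hb {x y} hx hy =>
    comm_eq hc (hx.trans (hL a ha).symm) (hy.trans (hL b hb).symm)
  have hcen : ∀ {a b}, polar Q u a = 0 → polar Q u b = 0 → ∀ g, g * B a b = B a b * g := by
    intro a b ha hb g
    refine Subgroup.mem_center_iff.1 (hc ?_) g
    rw [MonoidHom.mem_ker, hB, map_commutatorElement, hL a ha, hL b hb,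
      commutatorElement_eq_one_iff_mul_comm, siegel_mul, siegel_mul]
    exact siegel_congr _ _ _ _ _ rfl (add_comm a b)
  have hanti : ∀ {a b}, polar Q u a = 0 → polar Q u b = 0 → B b a = (B a b)⁻¹ := fun {a b} _ _ => by
    simp only [hB, commutatorElement_inv]
  have hR : ∀ {a}, polar Q u a = 0 → AddOn Q u (B a) := by
    intro a ha b c hb hc'
    rw [← hBeq ha (by rw [polar_add_right, hb, hc', add_zero]) (hL a ha)
      (show τ (L b * L c) = _ by rw [map_mul, hL b hb, hL c hc', siegel_mul])]
    have e : ⁅L a, L b * L c⁆ = ⁅L a, L b⁆ * (L b * ⁅L a, L c⁆ * (L b)⁻¹) := by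
      simp only [commutatorElement_def]; group
    rw [e, hcen ha hc' (L b), mul_inv_cancel_right]
  have hLt : ∀ {a b c}, polar Q u a = 0 → polar Q u b = 0 → polar Q u c = 0 →
      B (a + b) c = B a c * B b c := by
    intro a b c ha hb hc'
    have h1 : polar Q u (a + b) = 0 := by rw [polar_add_right, ha, hb, add_zero]
    rw [hanti hc' h1, hR hc' a b ha hb, mul_inv_rev, ← hanti hc' ha, ← hanti hc' hb]
    exact hcen ha hc' _
  have hinv : ∀ (g : OQ Q), g ∈ EQ Q → (g : V ≃ₗ[F] V) u = u → ∀ {a b}, polar Q u a = 0 →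
      polar Q u b = 0 → B ((g : V ≃ₗ[F] V) a) ((g : V ≃ₗ[F] V) b) = B a b := by
    intro g hg hgu a b ha hb
    obtain ⟨e, rfl⟩ := hsurj g hg
    have hga : ∀ {a}, polar Q u a = 0 → polar Q u ((τ e : V ≃ₗ[F] V) a) = 0 := fun {a} ha => by
      rw [← hgu, OQ_polar, ha]
    have hl : ∀ {a} (ha : polar Q u a = 0), τ (e * L a * e⁻¹) = siegel Q hu (hga ha) := fun {a} ha => by
      rw [map_mul, map_mul, map_inv, hL a ha, siegel_conj]
      exact siegel_congr _ _ _ _ _ hgu rfl
    rw [← hBeq (hga ha) (hga hb) (hl ha) (hl hb)]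
    have : ⁅e * L a * e⁻¹, e * L b * e⁻¹⁆ = e * B a b * e⁻¹ := by
      simp only [hB, commutatorElement_def]; group
    rw [this, hcen ha hb e, mul_inv_cancel_right]
  -- the line of `u` itself
  have hline : ∀ (k : F) {b}, polar Q u b = 0 → B (k • u) b = 1 := by
    intro k b hb
    have hk : polar Q u (k • u) = 0 := by rw [polar_smul_right, polar_self_of_sing hu, smul_zero]
    have h1 : τ (1 : E) = siegel Q hu hk := by
      rw [map_one, siegel_congr Q hu hk hu (a' := 0 + k • u)
        (by rw [zero_add]; exact hk) rfl (zero_add _).symm, siegel_add_self Q k hu (by simp : polar Q u 0 = 0),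
        siegel_zero]
    rw [← hBeq hk hb h1 (hL b hb), commutatorElement_def]; group
  -- step 1
  have st1 : ∀ {s x}, Q s = 0 → polar Q u s = 0 → polar Q u x = 0 → polar Q s x = 0 → B s x = 1 := by
    intro s x hs hus hux hsx
    by_cases hc' : ∃ c : F, s = c • u
    · obtain ⟨c, rfl⟩ := hc'; exact hline c hux
    · simp only [not_exists] at hc'
      refine eq_one_of_invariant hA (Adj.mk' hu hs hus hu0 hc') (hR hus) ?_ hux hsx
      intro x' hx' hux' a ha
      have hgs := siegel_fix_self hs hx'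
      have hgu : (siegel Q hs hx' : V ≃ₗ[F] V) u = u :=
        siegel_fix Q hs hx' ((polar_comm Q s u).trans hus) ((polar_comm Q x' u).trans hux')
      have e := hinv _ (siegel_mem_EQ Q hs hx') hgu hus ha
      rwa [hgs] at e
  -- step 2: hyperbolic pairs
  have st2 : ∀ {v y}, Q v = 0 → Q y = 0 → polar Q u v = 0 → polar Q u y = 0 → polar Q y v = 1 →
      ∀ (a c : F), B (a • v) (c • y) = 1 := by
    intro v y hv hy huv huy hyv
    obtain ⟨u', hu'⟩ := exists_dual hA.bn hu0
    obtain ⟨z, hz0, hz, hp⟩ := exists_perp_sing hA.bn ![u, v, y, u'] hA.dim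
    have a0 : polar Q u z = 0 := hp 0
    have a1 : polar Q v z = 0 := hp 1
    have a2 : polar Q y z = 0 := hp 2
    -- a non-singular vector orthogonal to the three
    obtain ⟨w, huw, hvw, hyw, hw⟩ : ∃ w, polar Q u w = 0 ∧ polar Q v w = 0 ∧ polar Q y w = 0 ∧ Q w ≠ 0 := by
      have hadj : Adj Q u z := Adj.mk' hu hz a0 hu0 (not_smul_of_dual hu' (hp 3) hz0)
      have hi : LinearIndependent F ![u, v, y, z] := by
        rw [Fintype.linearIndependent_iff]
        intro g hg
        rw [Fin.sum_univ_four] at hg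
        simp only [Matrix.cons_val_zero, Matrix.cons_val_one, Matrix.cons_val, Matrix.head_cons,
          Matrix.tail_cons] at hg
        have e1 := congrArg (fun x => polar Q y x) hg
        have e2 := congrArg (fun x => polar Q v x) hg
        simp only [polar_add_right, polar_smul_right, polar_comm Q y u, polar_comm Q v u, polar_comm Q v y,
          huv, huy, hyv, a1, a2, polar_self_of_sing hv, polar_self_of_sing hy, polar_zero_right,
          smul_eq_mul, mul_zero, mul_one, add_zero, zero_add] at e1 e2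
        rw [e1, e2, zero_smul, zero_smul, add_zero, add_zero] at hg
        obtain ⟨e0, e3⟩ := LinearIndependent.pair_iff.1 hadj.indep _ _ hg
        intro i; fin_cases i <;> assumption
      obtain ⟨z', hz'⟩ := exists_values hA.bn hi ![0, 0, 0, 1]
      have b0 : polar Q u z' = 0 := hz' 0
      have b1 : polar Q v z' = 0 := hz' 1
      have b2 : polar Q y z' = 0 := hz' 2
      have b3 : polar Q z z' = 1 := hz' 3
      by_cases hz'0 : Q z' = 0
      · exact ⟨z + z', by rw [polar_add_right, a0, b0, add_zero], by rw [polar_add_right, a1, b1, add_zero],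
          by rw [polar_add_right, a2, b2, add_zero], by rw [qf_add, hz, hz'0, b3]; simp⟩
      · exact ⟨z', b0, b1, b2, hz'0⟩
    have hwy : polar Q y w = 0 := hyw
    have hsm : ∀ (c : F) {x}, polar Q u x = 0 → polar Q u (c • x) = 0 := fun c {x} hx => by
      rw [polar_smul_right, hx, smul_zero]
    -- the key identity
    have hG : ∀ (v y : V), Q v = 0 → Q y = 0 → polar Q u v = 0 → polar Q u y = 0 → polar Q y v = 1 →
        polar Q v w = 0 → polar Q y w = 0 → ∀ a b : F, B (a • w) (b • w) = B (a • v) ((2 * b * Q w) • y) := by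
      intro v y hv hy huv huy hyv hvw hyw a b
      have hgu : (siegel Q hy hyw : V ≃ₗ[F] V) u = u :=
        siegel_fix Q hy hyw ((polar_comm Q y u).trans huy) ((polar_comm Q w u).trans huw)
      have hgv : (siegel Q hy hyw : V ≃ₗ[F] V) (a • v) = a • v + (a • w + (-(a * Q w)) • y) := by
        rw [map_smul, siegel_apply, hyv, polar_comm Q w v, hvw]
        module
      have hgw : (siegel Q hy hyw : V ≃ₗ[F] V) (b • w) = b • w + (-(2 * b * Q w)) • y := by
        rw [map_smul, siegel_apply, hyw, polar_self_two]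
        module
      have e := hinv _ (siegel_mem_EQ Q hy hyw) hgu (hsm a huv) (hsm b huw)
      have h1 : polar Q u (a • w + (-(a * Q w)) • y) = 0 := by
        rw [polar_add_right, hsm _ huw, hsm _ huy, add_zero]
      have h2 : polar Q u (b • w + (-(2 * b * Q w)) • y) = 0 := by
        rw [polar_add_right, hsm _ huw, hsm _ huy, add_zero]
      rw [hgv, hgw, hLt (hsm a huv) h1 h2, hLt (hsm a huw) (hsm _ huy) h2,
        hR (hsm a huv) _ _ (hsm b huw) (hsm _ huy), hR (hsm a huw) _ _ (hsm b huw) (hsm _ huy),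
        hR (hsm _ huy) _ _ (hsm b huw) (hsm _ huy)] at e
      have z1 : B (a • v) (b • w) = 1 := st1 (sing_smul a hv) (hsm a huv) (hsm b huw) (by
        rw [polar_smul_left, polar_smul_right, hvw]; simp)
      have z2 : B (a • w) ((-(2 * b * Q w)) • y) = 1 := by
        rw [hanti (hsm _ huy) (hsm a huw), st1 (sing_smul _ hy) (hsm _ huy) (hsm a huw) (by
          rw [polar_smul_left, polar_smul_right, hyw]; simp), inv_one]
      have z3 : B ((-(a * Q w)) • y) (b • w) = 1 := st1 (sing_smul _ hy) (hsm _ huy) (hsm b huw) (by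
        rw [polar_smul_left, polar_smul_right, hyw]; simp)
      have z4 : B ((-(a * Q w)) • y) ((-(2 * b * Q w)) • y) = 1 := st1 (sing_smul _ hy) (hsm _ huy)
        (hsm _ huy) (by rw [polar_smul_left, polar_smul_right, polar_self_of_sing hy]; simp)
      rw [z1, z2, z3, z4] at e
      simp only [one_mul, mul_one] at e
      rw [neg_smul, (hR (hsm a huv)).neg (hsm _ huy)] at e
      exact (inv_mul_eq_one.1 e).symm
    have hscale : ∀ (a c t : F), t ≠ 0 → B (a • v) (c • y) = B ((a * t) • v) ((c / t) • y) := by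
      intro a c t ht
      have e1 := hG v y hv hy huv huy hyv hvw hyw a (c / (2 * Q w))
      have e2 := hG (t • v) (t⁻¹ • y) (sing_smul t hv) (sing_smul _ hy) (hsm t huv) (hsm _ huy)
        (by rw [polar_smul_left, polar_smul_right, hyv, smul_eq_mul, smul_eq_mul, mul_one, inv_mul_cancel₀ ht])
        (by rw [polar_smul_left, hvw, smul_zero]) (by rw [polar_smul_left, hyw, smul_zero]) a (c / (2 * Q w))
      have hq : 2 * (c / (2 * Q w)) * Q w = c := by have := hA.two; field_simp
      rw [hq] at e1 e2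
      rw [← e1, e2, smul_smul, smul_smul, div_eq_mul_inv]
    have hnorm : ∀ a c : F, a ≠ 0 → B (a • v) (c • y) = B ((1 : F) • v) ((a * c) • y) := fun a c ha => by
      rw [hscale a c a⁻¹ (inv_ne_zero ha), mul_inv_cancel₀ ha, div_inv_eq_mul, mul_comm c a]
    intro a c
    rcases eq_or_ne a 0 with rfl | ha
    · rw [zero_smul, ← zero_smul F u, hline _ (hsm c huy)]
    rcases eq_or_ne c 0 with rfl | hc'
    · rw [zero_smul, (hR (hsm a huv)).zero]
    set b := c / (2 * Q w)
    have hq : 2 * b * Q w = c := by have := hA.two; simp only [b]; field_simp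
    have hb : b ≠ 0 := by intro h0; rw [h0, mul_zero, zero_mul] at hq; exact hc' hq.symm
    have e1 := hG v y hv hy huv huy hyv hvw hyw a b
    have e2 := hG v y hv hy huv huy hyv hvw hyw b a
    rw [hq] at e1
    rw [hnorm a c ha] at e1
    rw [hnorm b _ hb, show b * (2 * a * Q w) = a * c by rw [← hq]; ring, hanti (hsm a huw) (hsm b huw),
      inv_eq_iff_eq_inv] at e2
    rw [hnorm a c ha]
    refine AddOn.eq_one_of_sq hA.two (hR (hsm 1 huv)) (hsm _ huy) ?_
    nth_rewrite 2 [← e1]
    rw [e2, mul_inv_cancel]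
  -- step 3: singular vectors
  have st3 : ∀ {s s'}, Q s = 0 → Q s' = 0 → polar Q u s = 0 → polar Q u s' = 0 → B s s' = 1 := by
    intro s s' hs hs' hus hus'
    by_cases hp : polar Q s s' = 0
    · exact st1 hs hus hus' hp
    have e := st2 hs (sing_smul (polar Q s s')⁻¹ hs') hus (by rw [polar_smul_right, hus', smul_zero])
      (by rw [polar_smul_left, polar_comm Q s' s, smul_eq_mul, inv_mul_cancel₀ hp]) 1 (polar Q s s')
    rwa [one_smul, smul_smul, mul_inv_cancel₀ hp, one_smul] at e
  have h2p : HasTwoPairs Q := hasTwoPairs_of_five_le hA.bn (by have := hA.dim; omega)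
  rw [← commutatorElement_eq_one_iff_commute, hBeq ha hb hx hy]
  refine perp_induction hA.bn.qNondeg h2p hu hu0 (P := fun b => B a b = 1)
    (fun c d hc' hd h1 h2 => by rw [hR ha c d hc' hd, h1, h2, one_mul]) (fun s hus hs => ?_) hb
  refine perp_induction hA.bn.qNondeg h2p hu hu0 (P := fun a => B a s = 1)
    (fun c d hc' hd h1 h2 => by rw [hLt hc' hd hus, h1, h2, one_mul]) (fun t hut ht => ?_) ha
  exact st3 ht hs hut hus

end Cfsg.Agent.CentralExt.OrthMult
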