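import Cfsg.Agent.CentralExt.OrthMult.Cover

/-!
The kernel of a perfect extension with a system of Siegel lifts descends to the space orthogonal
to a hyperbolic pair.
-/

set_option autoImplicit false
set_option linter.unusedSectionVars false

namespace Cfsg.Agent.CentralExt.OrthMult

open QuadraticMap Module Cfsg.Agent.Classical Cfsg.Agent.OrthGen
open scoped commutatorElement

universe u v w

variable {F : Type u} [Field F]

/-- Vectors orthogonal to a singular vector are sums of singular ones. -/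
theorem perp_induction {V : Type v} [AddCommGroup V] [Module F V] {Q : QuadraticForm F V}
    (hQ : QNondeg Q) (h : HasTwoPairs Q) {u : V} (hu : Q u = 0) (hu0 : u ≠ 0) {P : V → Prop}
    (hadd : ∀ x y, polar Q u x = 0 → polar Q u y = 0 → P x → P y → P (x + y))
    (hsing : ∀ x, polar Q u x = 0 → Q x = 0 → P x) {a : V} (ha : polar Q u a = 0) : P a := by
  obtain ⟨f, e', f', hp⟩ := h.two_pairs_of_singular hQ hu0 hu
  obtain ⟨-, ⟨he', hf', hef'⟩, hue, huf, -, -⟩ := hp
  have hne : ∀ b, polar Q u b = 0 → polar Q e' b ≠ 0 → P b := by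
    intro b hb hb0
    set t := -Q b / polar Q e' b
    have h1 : polar Q u (b + t • e') = 0 := by
      rw [polar_add_right, polar_smul_right, hb, hue, smul_zero, add_zero]
    have h2 : polar Q u ((-t) • e') = 0 := by rw [polar_smul_right, hue, smul_zero]
    have := hadd _ _ h1 h2 (hsing _ h1 (by
      rw [qf_add, QuadraticMap.map_smul, he', smul_zero, add_zero, polar_smul_right, polar_comm Q b e']
      simp only [t, smul_eq_mul]
      field_simp
      ring)) (hsing _ h2 (sing_smul _ he'))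
    rwa [show b + t • e' + -t • e' = b by module] at this
  by_cases ha0 : polar Q e' a = 0
  · have h1 : polar Q u (a + f') = 0 := by rw [polar_add_right, ha, huf, add_zero]
    have h2 : polar Q u (-f') = 0 := by rw [polar_neg_right, huf, neg_zero]
    have := hadd _ _ h1 h2 (hne _ h1 (by rw [polar_add_right, ha0, hef', zero_add]; exact one_ne_zero))
      (hsing _ h2 (sing_neg hf'))
    rwa [add_neg_cancel_right] at this
  · exact hne a ha ha0

variable {W : Type v} [AddCommGroup W] [Module F W] [FiniteDimensional F W] [Finite F]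
  {Q : QuadraticForm F W} {E : Type w} [Group E]

/-- The embedding of the orthogonal complement of the distinguished pair. -/
abbrev inW (F : Type u) [Field F] {W : Type v} [AddCommGroup W] [Module F W] : W →ₗ[F] (F × F) × W :=
  LinearMap.inr F (F × F) W

theorem hypAdd_inW (x : W) : hypAdd Q (inW F x) = Q x := by simp [inW]

theorem polar_inW (x y : W) : polar (hypAdd Q) (inW F x) (inW F y) = polar Q x y := by
  simp only [polar, ← map_add, hypAdd_inW]

theorem amb_hypAdd (hB : BNondeg Q) (h2 : (2 : F) ≠ 0) (hn : 5 ≤ finrank F W) : Amb (hypAdd Q) :=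
  ⟨bNondeg_hypAdd hB, by rw [finrank_prod, finrank_prod, finrank_self]; omega, h2⟩

theorem descend {τ : E →* OQ (hypAdd Q)} [Group.IsPerfect E] (hB : BNondeg Q) (h2 : (2 : F) ≠ 0)
    (hn : 5 ≤ finrank F W) (hgen : ∀ e, τ e ∈ EQ (hypAdd Q)) (hc : τ.ker ≤ Subgroup.center E)
    (S : Sys (hypAdd Q) τ) :
    ∃ (L : Subgroup E) (π : L →* OQ Q), Group.IsPerfect L ∧ π.range = EQ Q ∧
      π.ker ≤ Subgroup.center L ∧ τ.ker ≤ L ∧ (∀ x : L, π x = 1 ↔ τ x = 1) ∧ Nonempty (Sys Q π) := by
  classical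
  let Hy : W → W → Prop := fun y a => Q y = 0 ∧ polar Q y a = 0
  have hQy : ∀ {y a}, Hy y a → hypAdd Q (inW F y) = 0 := fun h => by rw [hypAdd_inW, h.1]
  have hpa : ∀ {y a}, Hy y a → polar (hypAdd Q) (inW F y) (inW F a) = 0 := fun h => by rw [polar_inW, h.2]
  let L : Subgroup E := Subgroup.closure {e | ∃ y a, Hy y a ∧ e = S.ψ (inW F y) (inW F a)}
  have hmemL : ∀ {y a}, Hy y a → S.ψ (inW F y) (inW F a) ∈ L := fun {y a} h =>
    Subgroup.subset_closure ⟨y, a, h, rfl⟩
  have hsieg : ∀ {y a} (h : Hy y a), τ (S.ψ (inW F y) (inW F a)) = hypLift Q (siegel Q h.1 h.2) := by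
    intro y a h
    obtain ⟨_, _, e⟩ := hypLift_siegel h.1 h.2
    rw [e, S.lift (hQy h) (hpa h)]
    exact siegel_congr _ _ _ _ _ rfl rfl
  have hrange : ∀ x ∈ L, τ x ∈ (hypLift Q).range := by
    intro x hx
    induction hx using Subgroup.closure_induction with
    | mem x hx => obtain ⟨y, a, h, rfl⟩ := hx; exact ⟨_, (hsieg h).symm⟩
    | one => rw [map_one]; exact one_mem _
    | mul a b _ _ ha hb => rw [map_mul]; exact mul_mem ha hb
    | inv a _ ha => rw [map_inv]; exact inv_mem ha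
  let π : L →* OQ Q := (MonoidHom.ofInjective (hypLift_injective Q)).symm.toMonoidHom.comp
    ((τ.comp L.subtype).codRestrict (hypLift Q).range fun x => hrange x.1 x.2)
  have hπ : ∀ x : L, hypLift Q (π x) = τ x := fun x => by
    show hypLift Q ((MonoidHom.ofInjective (hypLift_injective Q)).symm _) = _
    rw [MonoidHom.apply_ofInjective_symm]
    rfl
  have hπψ : ∀ {y a} (h : Hy y a), π ⟨_, hmemL h⟩ = siegel Q h.1 h.2 := fun {y a} h =>
    hypLift_injective Q (by rw [hπ]; exact hsieg h)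
  have hπ1 : ∀ x : L, π x = 1 ↔ τ x = 1 := fun x => by
    rw [← hπ, map_eq_one_iff _ (hypLift_injective Q)]
  -- the restricted system
  have hap : ∀ (e : L) (x : W),
      ((τ e : ((F × F) × W) ≃ₗ[F] (F × F) × W)) (inW F x) = inW F ((π e : W ≃ₗ[F] W) x) := fun e x => by
    rw [← hπ, hypLift_apply]; rfl
  let φ : W → W → L := fun y a => if h : Hy y a then ⟨_, hmemL h⟩ else 1
  have hφ : ∀ {y a} (h : Hy y a), (φ y a : E) = S.ψ (inW F y) (inW F a) := fun h => by
    simp only [φ, dif_pos h]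
  have S' : Sys Q π :=
    { ψ := φ
      lift := fun {y a} hy ha => by simp only [φ, dif_pos (show Hy y a from ⟨hy, ha⟩)]; exact hπψ ⟨hy, ha⟩
      add := fun {y a b} hy ha hb => Subtype.ext (by
        rw [Subgroup.coe_mul, hφ ⟨hy, ha⟩, hφ ⟨hy, hb⟩,
          hφ (show Hy y (a + b) from ⟨hy, by rw [polar_add_right, ha, hb, add_zero]⟩), map_add]
        exact S.add (hQy ⟨hy, ha⟩) (hpa ⟨hy, ha⟩) (hpa ⟨hy, hb⟩))
      smul := fun {y a} c hy ha => Subtype.ext (by
        rw [hφ (show Hy (c • y) a from ⟨sing_smul c hy, by rw [polar_smul_left, ha, smul_zero]⟩),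
          hφ (show Hy y (c • a) from ⟨hy, by rw [polar_smul_right, ha, smul_zero]⟩), map_smul, map_smul]
        exact S.smul c (hQy ⟨hy, ha⟩) (hpa ⟨hy, ha⟩))
      conj := fun e {y a} hy ha => Subtype.ext (by
        rw [Subgroup.coe_mul, Subgroup.coe_mul, Subgroup.coe_inv, hφ ⟨hy, ha⟩,
          hφ (show Hy ((π e : W ≃ₗ[F] W) y) ((π e : W ≃ₗ[F] W) a) from
            ⟨by rw [OQ_map_app, hy], by rw [OQ_polar, ha]⟩),
          S.conj (e : E) (hQy ⟨hy, ha⟩) (hpa ⟨hy, ha⟩), hap, hap])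
      swap := fun {y a} hy ha hya => Subtype.ext (by
        rw [hφ ⟨hy, hya⟩, hφ (show Hy a (-y) from ⟨ha, by rw [polar_neg_right, polar_comm, hya, neg_zero]⟩),
          map_neg]
        exact S.swap (hQy ⟨hy, hya⟩) (by rw [hypAdd_inW, ha]) (hpa ⟨hy, hya⟩)) }
  -- perfectness
  have h2p : HasTwoPairs Q := hasTwoPairs_of_five_le hB hn
  have hperf : ∀ {y a}, Hy y a → S.ψ (inW F y) (inW F a) ∈ ⁅L, L⁆ := by
    intro y a h
    rcases eq_or_ne y 0 with rfl | hy0
    · rw [map_zero]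
      have h0 := S.smul (x := (0 : (F × F) × W)) (a := inW F a) 0 (by simp) (by simp)
      rw [zero_smul, zero_smul, S.zero (by simp)] at h0
      rw [h0]; exact one_mem _
    refine perp_induction hB.qNondeg h2p h.1 hy0 (P := fun a => S.ψ (inW F y) (inW F a) ∈ ⁅L, L⁆) ?_ ?_ h.2
    · intro a b ha hb hPa hPb
      rw [map_add, S.add (hQy ⟨h.1, ha⟩) (hpa ⟨h.1, ha⟩) (hpa ⟨h.1, hb⟩)]
      exact mul_mem hPa hPb
    intro v hyv hv
    obtain ⟨z, hyz, hvz, hz⟩ : ∃ z, polar Q y z = 0 ∧ polar Q v z = 0 ∧ Q z ≠ 0 := by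
      by_contra hno
      push Not at hno
      have hle := two_mul_finrank_le hB (perpSub Q (Submodule.span F (Set.range ![y, v]))) fun s hs =>
        hno s (hs y (Submodule.subset_span ⟨0, rfl⟩)) (hs v (Submodule.subset_span ⟨1, rfl⟩))
      rw [finrank_orthogonal_polar hB] at hle
      have hs : finrank F ↥(Submodule.span F (Set.range ![y, v])) ≤ 2 :=
        (finrank_range_le_card (R := F) ![y, v]).trans_eq (Fintype.card_fin 2)
      omega
    set t : F := -1 / (2 * Q z) with ht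
    have hb : Hy v (t • z) := ⟨hv, by rw [polar_smul_right, hvz, smul_zero]⟩
    have hz' : Hy y z := ⟨h.1, hyz⟩
    have hgy : (siegel Q hb.1 hb.2 : W ≃ₗ[F] W) y = y := by
      rw [siegel_apply, polar_comm Q v y, hyv, polar_smul_left, polar_comm Q z y, hyz]
      simp
    have hgz : (siegel Q hb.1 hb.2 : W ≃ₗ[F] W) z = z + v := by
      rw [siegel_apply, hvz, polar_smul_left, polar_self_two, smul_eq_mul,
        show t * (2 * Q z) = -1 by rw [ht]; field_simp]
      module
    have key := S.conj (S.ψ (inW F v) (inW F (t • z))) (hQy hz') (hpa hz')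
    have e1 := hap ⟨_, hmemL hb⟩ y
    have e2 := hap ⟨_, hmemL hb⟩ z
    rw [hπψ hb] at e1 e2
    rw [hgy] at e1
    rw [hgz] at e2
    rw [e1, e2, map_add, S.add (hQy hz') (hpa hz') (hpa ⟨h.1, hyv⟩)] at key
    have : S.ψ (inW F y) (inW F v) = ⁅(S.ψ (inW F y) (inW F z))⁻¹, S.ψ (inW F v) (inW F (t • z))⁆ := by
      rw [commutatorElement_def, inv_inv]
      calc S.ψ (inW F y) (inW F v)
          = (S.ψ (inW F y) (inW F z))⁻¹ * (S.ψ (inW F v) (inW F (t • z)) * S.ψ (inW F y) (inW F z) *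
              (S.ψ (inW F v) (inW F (t • z)))⁻¹) := by rw [key, inv_mul_cancel_left]
        _ = _ := by group
    rw [this]
    exact Subgroup.commutator_mem_commutator (inv_mem (hmemL hz')) (hmemL hb)
  have hLperf : Group.IsPerfect L := by
    rw [Group.isPerfect_def, eq_top_iff, ← Subgroup.map_subtype_le_map_subtype,
      ← MonoidHom.range_eq_map, Subgroup.range_subtype, Subgroup.map_subtype_commutator]
    refine (Subgroup.closure_le _).2 ?_
    rintro _ ⟨y, a, h, rfl⟩
    exact hperf h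
  -- the kernel
  set u : (F × F) × W := hE F W with hu_def
  set f : (F × F) × W := hF F W with hf_def
  have hQu : hypAdd Q u = 0 := (isPair_hypAdd Q).1
  have hLfix : ∀ l ∈ L, (τ l : ((F × F) × W) ≃ₗ[F] (F × F) × W) u = u ∧
      (τ l : ((F × F) × W) ≃ₗ[F] (F × F) × W) f = f := by
    intro l hl
    obtain ⟨g, hg⟩ := hrange l hl
    rw [← hg]
    constructor <;> simp [hu_def, hf_def, hE, hF, Prod.ext_iff]
  let C : Subgroup E :=
    { carrier := {e | ∃ a, polar (hypAdd Q) u a = 0 ∧ e = S.ψ u a}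
      one_mem' := ⟨0, by simp, (S.zero hQu).symm⟩
      mul_mem' := by
        rintro _ _ ⟨a, ha, rfl⟩ ⟨b, hb, rfl⟩
        exact ⟨a + b, by rw [polar_add_right, ha, hb, add_zero], (S.add hQu ha hb).symm⟩
      inv_mem' := by
        rintro _ ⟨a, ha, rfl⟩
        exact ⟨-a, by rw [polar_neg_right, ha, neg_zero], (S.neg hQu ha).symm⟩ }
  have hnorm : ∀ l ∈ L, ∀ c ∈ C, l * c * l⁻¹ ∈ C := by
    rintro l hl _ ⟨a, ha, rfl⟩
    refine ⟨(τ l : ((F × F) × W) ≃ₗ[F] (F × F) × W) a, ?_, ?_⟩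
    · rw [← (hLfix l hl).1, OQ_polar, ha]
    · rw [S.conj l hQu ha, (hLfix l hl).1]
  let M : Subgroup E :=
    { carrier := {e | ∃ c ∈ C, ∃ l ∈ L, e = c * l}
      one_mem' := ⟨1, one_mem _, 1, one_mem _, by simp⟩
      mul_mem' := by
        rintro _ _ ⟨c, hc, l, hl, rfl⟩ ⟨c', hc', l', hl', rfl⟩
        exact ⟨c * (l * c' * l⁻¹), mul_mem hc (hnorm l hl c' hc'), l * l', mul_mem hl hl', by group⟩
      inv_mem' := by
        rintro _ ⟨c, hc, l, hl, rfl⟩
        refine ⟨l⁻¹ * c⁻¹ * l⁻¹⁻¹, hnorm _ (inv_mem hl) _ (inv_mem hc), l⁻¹, inv_mem hl, ?_⟩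
        group }
  have hCM : ∀ {e}, e ∈ C → e ∈ M := fun {e} he => ⟨e, he, 1, one_mem _, (mul_one e).symm⟩
  have hLM : ∀ {e}, e ∈ L → e ∈ M := fun {e} he => ⟨1, one_mem _, e, he, (one_mul e).symm⟩
  have hpu : ∀ x : (F × F) × W, polar (hypAdd Q) u x = x.1.2 := fun x => by simp [hu_def, hE]
  have hKM : S.K u ≤ M := by
    refine (Subgroup.closure_le _).2 ?_
    rintro _ ⟨⟨⟨k, k'⟩, y⟩, ⟨⟨l, l'⟩, w⟩, hy, hyw, huy, huw, rfl⟩
    obtain rfl : k' = 0 := by rw [hpu] at huy; exact huy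
    obtain rfl : l' = 0 := by rw [hpu] at huw; exact huw
    have hy' : Q y = 0 := by simpa using hy
    have hyw' : polar Q y w = 0 := by simpa using hyw
    rcases eq_or_ne y 0 with rfl | hy0
    · have e : (((k, 0), 0) : (F × F) × W) = k • u := by simp [hu_def, hE]
      rw [e, S.smul k hQu huw]
      exact hCM ⟨_, by rw [polar_smul_right, huw, smul_zero], rfl⟩
    obtain ⟨a, ha⟩ := exists_values hB (s := ![y]) (LinearIndependent.of_subsingleton 0 hy0) ![-k]
    have ha' : polar Q a y = -k := (polar_comm Q a y).trans (ha 0)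
    have hua : polar (hypAdd Q) u (inW F a) = 0 := by rw [hpu]; rfl
    set c := S.ψ u (inW F a)
    have hc : c ∈ M := hCM ⟨_, hua, rfl⟩
    have hmove : ∀ x : W, (τ c : ((F × F) × W) ≃ₗ[F] (F × F) × W) (inW F x) = ((-polar Q a x, 0), x) := by
      intro x
      rw [S.lift hQu hua, siegel_apply, polar_inW, hpu]
      simp [hu_def, hE]
    set s : F := l + polar Q a w
    have hsu : polar (hypAdd Q) (((k, 0), y) : (F × F) × W) (s • u) = 0 := by
      rw [polar_smul_right, polar_comm, huy, smul_zero]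
    have hw0 : polar (hypAdd Q) (((k, 0), y) : (F × F) × W) (((-polar Q a w, 0), w)) = 0 := by simp [hyw']
    rw [show (((l, 0), w) : (F × F) × W) = ((-polar Q a w, 0), w) + s • u by
      simp [hu_def, hE, s], S.add hy hw0 hsu]
    refine mul_mem ?_ ?_
    · have e := S.conj c (hQy ⟨hy', hyw'⟩) (hpa ⟨hy', hyw'⟩)
      rw [hmove, hmove, ha', neg_neg] at e
      rw [← e]
      exact mul_mem (mul_mem hc (hLM (hmemL ⟨hy', hyw'⟩))) (inv_mem hc)
    · rw [S.swap hy (sing_smul s hQu) hsu, S.smul s hQu (by rw [polar_neg_right, huy, neg_zero])]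
      exact hCM ⟨_, by rw [polar_smul_right, polar_neg_right, huy, neg_zero, smul_zero], rfl⟩
  have hker : τ.ker ≤ L := by
    intro z hz
    obtain ⟨_, ⟨a, ha, rfl⟩, l, hl, rfl⟩ := hKM (S.ker_le_K (amb_hypAdd hB h2 hn) hgen hc hQu
      (isPair_hypAdd Q).ne_zero hz)
    have h1 : τ (S.ψ u a) * τ l = 1 := by rw [← map_mul]; exact hz
    have h3 : (τ (S.ψ u a) : ((F × F) × W) ≃ₗ[F] (F × F) × W) f = f := by
      conv_lhs => arg 2; rw [← (hLfix l hl).2]
      rw [← LinearEquiv.mul_apply, ← Subgroup.coe_mul, h1]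
      rfl
    rw [S.lift hQu ha, siegel_apply, (isPair_hypAdd Q).2.2, one_smul, mul_one] at h3
    have hau : a = (polar (hypAdd Q) a f + hypAdd Q a) • u := by
      rw [hu_def, hf_def] at h3 ⊢
      linear_combination (norm := module) h3
    have hhalf : ∀ k : F, S.ψ u (k • u) = 1 := by
      intro k
      have hk : polar (hypAdd Q) u ((k / 2) • u) = 0 := by
        rw [polar_smul_right, polar_self_of_sing hQu, smul_zero]
      have e := S.swap hQu (sing_smul (k / 2) hQu) hk
      rw [S.smul (k / 2) hQu (by rw [polar_neg_right, polar_self_of_sing hQu, neg_zero]), smul_neg,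
        S.neg hQu hk] at e
      have e2 : S.ψ u (k • u) = S.ψ u ((k / 2) • u) * S.ψ u ((k / 2) • u) := by
        rw [← S.add hQu hk hk, ← add_smul, ← two_mul, mul_div_cancel₀ _ h2]
      rw [e2]
      nth_rewrite 2 [e]
      rw [mul_inv_cancel]
    rw [hau, hhalf, one_mul]
    exact hl
  refine ⟨L, π, hLperf, ?_, ?_, hker, hπ1, ⟨S'⟩⟩
  · refine le_antisymm ?_ ((Subgroup.closure_le _).2 ?_)
    · rintro _ ⟨⟨x, hx⟩, rfl⟩
      induction hx using Subgroup.closure_induction with
      | mem x hx => obtain ⟨y, a, h, rfl⟩ := hx; rw [hπψ h]; exact siegel_mem_EQ _ _ _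
      | one => exact (map_one π).symm ▸ one_mem _
      | mul a b ha hb iha ihb =>
        exact (map_mul π ⟨a, ha⟩ ⟨b, hb⟩).symm ▸ mul_mem iha ihb
      | inv a ha iha => exact (map_inv π ⟨a, ha⟩).symm ▸ inv_mem iha
    · rintro _ ⟨y, a, hy, ha, rfl⟩
      exact ⟨⟨_, hmemL ⟨hy, ha⟩⟩, hπψ ⟨hy, ha⟩⟩
  · intro x hx
    refine Subgroup.mem_center_iff.2 fun g => Subtype.ext ?_
    exact Subgroup.mem_center_iff.1 (hc (MonoidHom.mem_ker.2 ((hπ1 x).1 hx))) (g : E)

end Cfsg.Agent.CentralExt.OrthMult
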