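import Cfsg.Agent.CentralExt.OrthMult.Geom

/-!
A compatible system of lifts of the Siegel transformations confines the kernel of a perfect
extension to the lifts of the stabiliser of one singular vector: the polar graph on the nonzero
singular vectors has no proper covering.
-/

set_option autoImplicit false
set_option linter.unusedSectionVars false

namespace Cfsg.Agent.CentralExt.OrthMult

open QuadraticMap Module Cfsg.Agent.Classical Cfsg.Agent.OrthGen
open scoped commutatorElement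

universe u v w

variable {F : Type u} [Field F] {V : Type v} [AddCommGroup V] [Module F V]
  {Q : QuadraticForm F V} {E : Type w} [Group E]

/-- A compatible system of lifts of the Siegel transformations. -/
structure Sys (Q : QuadraticForm F V) (τ : E →* OQ Q) where
  ψ : V → V → E
  lift : ∀ {x a : V} (hx : Q x = 0) (ha : polar Q x a = 0), τ (ψ x a) = siegel Q hx ha
  add : ∀ {x a b : V}, Q x = 0 → polar Q x a = 0 → polar Q x b = 0 → ψ x (a + b) = ψ x a * ψ x b
  smul : ∀ {x a : V} (c : F), Q x = 0 → polar Q x a = 0 → ψ (c • x) a = ψ x (c • a)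
  conj : ∀ (e : E) {x a : V}, Q x = 0 → polar Q x a = 0 →
    e * ψ x a * e⁻¹ = ψ ((τ e : V ≃ₗ[F] V) x) ((τ e : V ≃ₗ[F] V) a)
  swap : ∀ {x a : V}, Q x = 0 → Q a = 0 → polar Q x a = 0 → ψ x a = ψ a (-x)

namespace Sys

variable {τ : E →* OQ Q} (S : Sys Q τ)

theorem zero {x : V} (hx : Q x = 0) : S.ψ x 0 = 1 := by
  have h := S.add hx (by simp : polar Q x (0 : V) = 0) (by simp : polar Q x (0 : V) = 0)
  rw [add_zero] at h
  exact mul_eq_left.1 h.symm

theorem neg {x a : V} (hx : Q x = 0) (ha : polar Q x a = 0) : S.ψ x (-a) = (S.ψ x a)⁻¹ := by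
  refine (inv_eq_of_mul_eq_one_right ?_).symm
  rw [← S.add hx ha (by rw [polar_neg_right, ha, neg_zero]), add_neg_cancel, S.zero hx]

theorem neg_left {x a : V} (hx : Q x = 0) (ha : polar Q x a = 0) : S.ψ (-x) a = (S.ψ x a)⁻¹ := by
  rw [← neg_one_smul F x, S.smul _ hx ha, neg_one_smul, S.neg hx ha]

/-- The subgroup generated by the lifts attached to the orthogonal of `u`. -/
def K (u : V) : Subgroup E :=
  Subgroup.closure {e | ∃ y w, Q y = 0 ∧ polar Q y w = 0 ∧ polar Q u y = 0 ∧ polar Q u w = 0 ∧ e = S.ψ y w}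

theorem mem_K {u y w : V} (hy : Q y = 0) (hyw : polar Q y w = 0) (huy : polar Q u y = 0)
    (huw : polar Q u w = 0) : S.ψ y w ∈ S.K u :=
  Subgroup.subset_closure ⟨y, w, hy, hyw, huy, huw, rfl⟩

theorem K_fix {u : V} {e : E} (he : e ∈ S.K u) : (τ e : V ≃ₗ[F] V) u = u := by
  induction he using Subgroup.closure_induction with
  | mem e he =>
    obtain ⟨y, w, hy, hyw, huy, huw, rfl⟩ := he
    rw [S.lift hy hyw]
    exact siegel_fix Q hy hyw ((polar_comm Q y u).trans huy) ((polar_comm Q w u).trans huw)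
  | one => simp
  | mul a b _ _ ha hb => rw [map_mul, Subgroup.coe_mul, LinearEquiv.mul_apply, hb, ha]
  | inv a _ ha =>
    rw [map_inv, Subgroup.coe_inv]
    exact (LinearEquiv.symm_apply_eq _).2 ha.symm

theorem conj_mem_K {u : V} {k : E} (hk : k ∈ S.K u) (e : E) :
    e * k * e⁻¹ ∈ S.K ((τ e : V ≃ₗ[F] V) u) := by
  induction hk using Subgroup.closure_induction with
  | mem k hk =>
    obtain ⟨y, w, hy, hyw, huy, huw, rfl⟩ := hk
    rw [S.conj e hy hyw]
    exact S.mem_K (by rw [OQ_map_app, hy]) (by rw [OQ_polar, hyw]) (by rw [OQ_polar, huy])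
      (by rw [OQ_polar, huw])
  | one => simp
  | mul a b _ _ ha hb =>
    rw [show e * (a * b) * e⁻¹ = (e * a * e⁻¹) * (e * b * e⁻¹) by group]
    exact mul_mem ha hb
  | inv a _ ha =>
    rw [show e * a⁻¹ * e⁻¹ = (e * a * e⁻¹)⁻¹ by group]
    exact inv_mem ha

/-- The covering space over the orbit of `u₀`. -/
abbrev Cov (u₀ : V) : Type w := E ⧸ S.K u₀

variable {u₀ : V}

/-- The projection to vectors. -/
def proj : S.Cov u₀ → V :=
  fun x => Quotient.liftOn' x (fun e => (τ e : V ≃ₗ[F] V) u₀) fun a b h => by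
    rw [QuotientGroup.leftRel_apply] at h
    have := S.K_fix h
    rw [map_mul, map_inv, Subgroup.coe_mul, LinearEquiv.mul_apply, Subgroup.coe_inv] at this
    exact ((LinearEquiv.symm_apply_eq _).1 this).symm

theorem proj_mk (e : E) : S.proj (QuotientGroup.mk e : S.Cov u₀) = (τ e : V ≃ₗ[F] V) u₀ := rfl

theorem proj_smul (e : E) (x : S.Cov u₀) : S.proj (e • x) = (τ e : V ≃ₗ[F] V) (S.proj x) := by
  induction x using QuotientGroup.induction_on with
  | H a =>
    rw [MulAction.Quotient.smul_mk, smul_eq_mul, proj_mk, proj_mk, map_mul, Subgroup.coe_mul,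
      LinearEquiv.mul_apply]

theorem smul_eq_self {x : S.Cov u₀} {k : E} (hk : k ∈ S.K (S.proj x)) : k • x = x := by
  induction x using QuotientGroup.induction_on with
  | H a =>
    rw [MulAction.Quotient.smul_mk, smul_eq_mul, eq_comm, QuotientGroup.eq]
    have h := S.conj_mem_K hk a⁻¹
    rw [proj_mk, map_inv, Subgroup.coe_inv] at h
    rw [inv_inv] at h
    rw [← mul_assoc]
    have e : ((τ a : V ≃ₗ[F] V))⁻¹ ((τ a : V ≃ₗ[F] V) u₀) = u₀ := LinearEquiv.symm_apply_apply _ _
    rw [e] at h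
    exact h

variable [FiniteDimensional F V] [Finite F] (hA : Amb Q)
include hA

theorem sing_sub {x v : V} (h : Adj Q x v) : Q (v - x) = 0 := by
  rw [qf_sub, h.left, h.right, polar_comm, h.orth]; simp

theorem exists_mover {x v : V} (h : Adj Q x v) :
    ∃ y, polar Q x y = -1 ∧ polar Q (v - x) y = 0 := by
  obtain ⟨y, hy⟩ := exists_values hA.bn h.indep ![-1, -1]
  refine ⟨y, hy 0, ?_⟩
  rw [polar_sub_left, show polar Q x y = -1 from hy 0, show polar Q v y = -1 from hy 1, sub_self]

/-- The neighbour over `v`. -/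
noncomputable def nbr (x : S.Cov u₀) (v : V) : S.Cov u₀ :=
  haveI := _root_.Classical.propDecidable
  if h : Adj Q (S.proj x) v then S.ψ (v - S.proj x) (exists_mover hA h).choose • x else x

theorem nbr_eq {x : S.Cov u₀} {v y : V} (h : Adj Q (S.proj x) v) (h1 : polar Q (S.proj x) y = -1)
    (h2 : polar Q (v - S.proj x) y = 0) : S.nbr hA x v = S.ψ (v - S.proj x) y • x := by
  rw [nbr, dif_pos h]
  obtain ⟨c1, c2⟩ := (exists_mover hA h).choose_spec
  set y' := (exists_mover hA h).choose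
  have hd := sing_sub hA h
  have hd2 : polar Q (v - S.proj x) (y' - y) = 0 := by rw [polar_sub_right, c2, h2, sub_zero]
  have hdx : polar Q (S.proj x) (v - S.proj x) = 0 := by
    rw [polar_sub_right, h.orth, polar_self_of_sing h.left, sub_zero]
  conv_lhs => rw [show y' = y + (y' - y) by abel, S.add hd h2 hd2, mul_smul]
  congr 1
  exact S.smul_eq_self (S.mem_K hd hd2 hdx (by rw [polar_sub_right, c1, h1, sub_self]))

theorem proj_nbr {x : S.Cov u₀} {v : V} (h : Adj Q (S.proj x) v) : S.proj (S.nbr hA x v) = v := by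
  obtain ⟨y, h1, h2⟩ := exists_mover hA h
  rw [S.nbr_eq hA h h1 h2, proj_smul, S.lift (sing_sub hA h) h2, siegel_apply,
    polar_comm Q y (S.proj x), h1, polar_sub_left, polar_self_of_sing h.left, polar_comm Q v (S.proj x),
    h.orth]
  simp

theorem nbr_smul {x : S.Cov u₀} {v : V} (h : Adj Q (S.proj x) v) (e : E) :
    e • S.nbr hA x v = S.nbr hA (e • x) ((τ e : V ≃ₗ[F] V) v) := by
  obtain ⟨y, h1, h2⟩ := exists_mover hA h
  have h' : Adj Q (S.proj (e • x)) ((τ e : V ≃ₗ[F] V) v) := by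
    rw [proj_smul]
    exact h.map (τ e)
  rw [S.nbr_eq hA h h1 h2, S.nbr_eq hA h' (y := (τ e : V ≃ₗ[F] V) y)
    (by rw [proj_smul, OQ_polar, h1]) (by rw [proj_smul, ← map_sub, OQ_polar, h2])]
  rw [proj_smul, ← map_sub, ← S.conj e (sing_sub hA h) h2, ← mul_smul, ← mul_smul, inv_mul_cancel_right]

theorem nbr_nbr {x : S.Cov u₀} {v : V} (h : Adj Q (S.proj x) v) :
    S.nbr hA (S.nbr hA x v) (S.proj x) = x := by
  obtain ⟨y, h1, h2⟩ := exists_mover hA h
  have hp := S.proj_nbr hA h
  have hd := sing_sub hA h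
  have h' : Adj Q (S.proj (S.nbr hA x v)) (S.proj x) := by rw [hp]; exact h.symm
  have h1' : polar Q v y = -1 := by
    rw [polar_sub_left, h1, sub_eq_zero] at h2; exact h2
  rw [S.nbr_eq hA h' (y := y) (by rw [hp]; exact h1')
    (by rw [hp, polar_sub_left, h1, h1', sub_self]), hp, S.nbr_eq hA h h1 h2, ← mul_smul,
    show S.proj x - v = -(v - S.proj x) by abel, S.neg_left hd h2, inv_mul_cancel, one_smul]

theorem triangle_indep {x : S.Cov u₀} {v w : V} (hv : Adj Q (S.proj x) v) (hw : Adj Q (S.proj x) w)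
    (hvw : Adj Q v w) (hi : LinearIndependent F ![S.proj x, v, w]) :
    S.nbr hA (S.nbr hA x v) w = S.nbr hA x w := by
  obtain ⟨y₀, hy₀⟩ := exists_values hA.bn hi ![-1, -1, -1]
  set y := y₀ + Q y₀ • S.proj x with hy
  have hb : ∀ z, polar Q z (S.proj x) = 0 → polar Q z y = polar Q z y₀ := fun z hz => by
    rw [hy, polar_add_right, polar_smul_right, hz, smul_zero, add_zero]
  have b1 : polar Q (S.proj x) y = -1 := (hb _ (polar_self_of_sing hv.left)).trans (hy₀ 0)
  have b2 : polar Q v y = -1 := (hb _ ((polar_comm Q v _).trans hv.orth)).trans (hy₀ 1)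
  have b3 : polar Q w y = -1 := (hb _ ((polar_comm Q w _).trans hw.orth)).trans (hy₀ 2)
  have hys : Q y = 0 := by
    rw [hy, qf_add, QuadraticMap.map_smul, hv.left, polar_smul_right, polar_comm,
      show polar Q (S.proj x) y₀ = -1 from hy₀ 0]
    simp
  have hd1 := sing_sub hA hv
  have hd2 := sing_sub hA hvw
  have hd3 := sing_sub hA hw
  have c1 : polar Q (v - S.proj x) y = 0 := by rw [polar_sub_left, b1, b2, sub_self]
  have c2 : polar Q (w - v) y = 0 := by rw [polar_sub_left, b2, b3, sub_self]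
  have c3 : polar Q (w - S.proj x) y = 0 := by rw [polar_sub_left, b1, b3, sub_self]
  have hp := S.proj_nbr hA hv
  rw [S.nbr_eq hA (x := S.nbr hA x v) (by rw [hp]; exact hvw) (y := y) (by rw [hp]; exact b2)
    (by rw [hp]; exact c2), hp, S.nbr_eq hA hv b1 c1, S.nbr_eq hA hw b1 c3, ← mul_smul]
  congr 1
  rw [S.swap hd1 hys c1, S.swap hd2 hys c2, S.swap hd3 hys c3,
    ← S.add hys (by rw [polar_neg_right, polar_comm, c2, neg_zero])
      (by rw [polar_neg_right, polar_comm, c1, neg_zero])]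
  congr 1
  abel

theorem triangle {x : S.Cov u₀} {v w : V} (hv : Adj Q (S.proj x) v) (hw : Adj Q (S.proj x) w)
    (hvw : Adj Q v w) : S.nbr hA (S.nbr hA x v) w = S.nbr hA x w := by
  by_cases hi : LinearIndependent F ![S.proj x, v, w]
  · exact S.triangle_indep hA hv hw hvw hi
  obtain ⟨v₁, hv₁⟩ := exists_values hA.bn hvw.indep ![1, 0]
  obtain ⟨w₁, hw₁⟩ := exists_values hA.bn hvw.indep ![0, 1]
  obtain ⟨z, hz0, hz, hp⟩ := exists_perp_sing hA.bn ![v, w, v₁, w₁] hA.dim
  -- `z` lies outside the plane spanned by `v` and `w`, which contains the first vector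
  have hzout : ∀ a b : F, z ≠ a • v + b • w := by
    intro a b e
    have e1 : polar Q z v₁ = 0 := (polar_comm Q z v₁).trans (hp 2)
    have e2 : polar Q z w₁ = 0 := (polar_comm Q z w₁).trans (hp 3)
    rw [e, polar_add_left, polar_smul_left, polar_smul_left, show polar Q v v₁ = 1 from hv₁ 0,
      show polar Q w v₁ = 0 from hv₁ 1] at e1
    rw [e, polar_add_left, polar_smul_left, polar_smul_left, show polar Q v w₁ = 0 from hw₁ 0,
      show polar Q w w₁ = 1 from hw₁ 1] at e2
    simp only [smul_eq_mul, mul_one, mul_zero, add_zero, zero_add] at e1 e2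
    exact hz0 (by rw [e, e1, e2, zero_smul, zero_smul, add_zero])
  obtain ⟨α, β, hx⟩ : ∃ α β : F, S.proj x = α • v + β • w := by
    rw [Fintype.not_linearIndependent_iff] at hi
    obtain ⟨g, hg, i, hgi⟩ := hi
    rw [Fin.sum_univ_three] at hg
    simp only [Matrix.cons_val_zero, Matrix.cons_val_one, Matrix.cons_val_two, Matrix.head_cons,
      Matrix.tail_cons] at hg
    have h0 : g 0 ≠ 0 := by
      intro h0
      rw [h0, zero_smul, zero_add] at hg
      obtain ⟨a, b⟩ := LinearIndependent.pair_iff.1 hvw.indep _ _ hg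
      fin_cases i <;> simp_all
    refine ⟨-(g 0)⁻¹ * g 1, -(g 0)⁻¹ * g 2, ?_⟩
    have := congrArg ((g 0)⁻¹ • ·) hg
    simp only [smul_add, smul_smul, inv_mul_cancel₀ h0, one_smul, smul_zero] at this
    linear_combination (norm := module) this
  have hxz : Adj Q (S.proj x) z := Adj.mk' hv.left hz (by
      rw [hx, polar_add_left, polar_smul_left, polar_smul_left, show polar Q v z = 0 from hp 0,
        show polar Q w z = 0 from hp 1, smul_zero, smul_zero, add_zero])
    hv.ne_zero.1 (fun c e => hzout (c * α) (c * β) (by rw [e, hx, smul_add, smul_smul, smul_smul]))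
  have hzv : Adj Q z v := (Adj.mk' hv.right hz (hp 0) hv.ne_zero.2 fun c e => hzout c 0 (by
    rw [e, zero_smul, add_zero])).symm
  have hzw : Adj Q z w := (Adj.mk' hw.right hz (hp 1) hw.ne_zero.2 fun c e => hzout 0 c (by
    rw [e, zero_smul, zero_add])).symm
  have hind : ∀ {a b : V}, Adj Q a b → (∀ c d : F, z ≠ c • a + d • b) →
      LinearIndependent F ![a, z, b] := by
    intro a b hab hout
    rw [Fintype.linearIndependent_iff]
    intro g hg
    rw [Fin.sum_univ_three] at hg
    simp only [Matrix.cons_val_zero, Matrix.cons_val_one, Matrix.cons_val_two, Matrix.head_cons,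
      Matrix.tail_cons] at hg
    have h1 : g 1 = 0 := by
      by_contra h1
      refine hout (-(g 1)⁻¹ * g 0) (-(g 1)⁻¹ * g 2) ?_
      have := congrArg ((g 1)⁻¹ • ·) hg
      simp only [smul_add, smul_smul, inv_mul_cancel₀ h1, one_smul, smul_zero] at this
      linear_combination (norm := module) this
    rw [h1, zero_smul, add_zero] at hg
    obtain ⟨a', b'⟩ := LinearIndependent.pair_iff.1 hab.indep _ _ hg
    intro i; fin_cases i <;> assumption
  have hplane : ∀ c d : F, z ≠ c • S.proj x + d • v := fun c d e => hzout (c * α + d) (c * β) (by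
    rw [e, hx, smul_add, smul_smul, smul_smul, add_smul]; abel)
  have hplane' : ∀ c d : F, z ≠ c • S.proj x + d • w := fun c d e => hzout (c * α) (c * β + d) (by
    rw [e, hx, smul_add, smul_smul, smul_smul, add_smul]; abel)
  have e1 := S.triangle_indep hA hxz hv hzv (hind hv hplane)
  have hp' := S.proj_nbr hA hxz
  rw [← e1, S.triangle_indep hA (x := S.nbr hA x z) (by rw [hp']; exact hzv) (by rw [hp']; exact hzw) hvw ?_,
    S.triangle_indep hA hxz hw hzw (hind hw hplane')]
  rw [hp', Fintype.linearIndependent_iff]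
  intro g hg
  rw [Fin.sum_univ_three] at hg
  simp only [Matrix.cons_val_zero, Matrix.cons_val_one, Matrix.cons_val_two, Matrix.head_cons,
    Matrix.tail_cons] at hg
  have h0 : g 0 = 0 := by
    by_contra h0
    refine hzout (-(g 0)⁻¹ * g 1) (-(g 0)⁻¹ * g 2) ?_
    have := congrArg ((g 0)⁻¹ • ·) hg
    simp only [smul_add, smul_smul, inv_mul_cancel₀ h0, one_smul, smul_zero] at this
    linear_combination (norm := module) this
  rw [h0, zero_smul, zero_add] at hg
  obtain ⟨a', b'⟩ := LinearIndependent.pair_iff.1 hvw.indep _ _ hg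
  intro i; fin_cases i <;> assumption

theorem via_eq {x : S.Cov u₀} {v y y' : V} (hv : Q v = 0) (hv0 : v ≠ 0)
    (h1 : Adj Q (S.proj x) y) (h2 : Adj Q y v) (h1' : Adj Q (S.proj x) y') (h2' : Adj Q y' v) :
    S.nbr hA (S.nbr hA x y) v = S.nbr hA (S.nbr hA x y') v := by
  -- neighbours adjacent to each other
  have key : ∀ {a b : V}, Adj Q (S.proj x) a → Adj Q a v → Adj Q (S.proj x) b → Adj Q b v →
      Adj Q a b → S.nbr hA (S.nbr hA x a) v = S.nbr hA (S.nbr hA x b) v := by
    intro a b ha ha' hb hb' hab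
    have hp := S.proj_nbr hA ha
    conv_rhs => rw [← S.triangle hA ha hb hab]
    rw [S.triangle hA (by rw [hp]; exact hab) (by rw [hp]; exact ha') hb']
  -- a vector adjacent to both suffices
  have two : ∀ z, Adj Q (S.proj x) z → Adj Q z v → Adj Q y z → Adj Q y' z →
      S.nbr hA (S.nbr hA x y) v = S.nbr hA (S.nbr hA x y') v := fun z a b c d =>
    (key h1 h2 a b c).trans (key h1' h2' a b d).symm
  by_cases hyy : polar Q y y' = 0
  · by_cases hc : ∃ c : F, y' = c • y
    · obtain ⟨c, rfl⟩ := hc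
      have hc0 : c ≠ 0 := by rintro rfl; exact h1'.ne_zero.2 (zero_smul F y)
      obtain ⟨z, za, zb, zc⟩ := exists_common_edge hA hv hv0 h1
      refine two z zb za.symm zc (Adj.mk' h1'.right zc.right ?_ h1'.ne_zero.2 fun d e => ?_)
      · rw [polar_smul_left, zc.orth, smul_zero]
      · have := LinearIndependent.pair_iff.1 zc.indep (d * c) (-1) (by rw [e, smul_smul]; module)
        exact neg_ne_zero.2 one_ne_zero this.2
    · simp only [not_exists] at hc
      exact key h1 h2 h1' h2' (Adj.mk' h1.right h1'.right hyy h1.ne_zero.2 hc)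
  set u := S.proj x
  have hu : Q u = 0 := h1.left
  have hu0 : u ≠ 0 := h1.ne_zero.1
  by_cases huv : polar Q u v = 0
  · by_cases hc : ∃ c : F, v = c • u
    · obtain ⟨c, rfl⟩ := hc
      have hc0 : c ≠ 0 := by rintro rfl; exact hv0 (zero_smul F u)
      obtain ⟨u', hu'⟩ := exists_dual hA.bn hu0
      obtain ⟨z, hz0, hz, hp⟩ := exists_perp_sing hA.bn ![u, y, y', u'] hA.dim
      have huz : Adj Q u z := Adj.mk' hu hz (hp 0) hu0 (not_smul_of_dual hu' (hp 3) hz0)
      refine two z huz ?_ ?_ ?_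
      · refine (Adj.mk' hv hz ?_ hv0 fun d e => not_smul_of_dual hu' (hp 3) hz0 (d * c) (by rw [e, smul_smul])).symm
        rw [polar_smul_left, huz.orth, smul_zero]
      · exact Adj.mk' h1.right hz (hp 1) h1.ne_zero.2
          (not_smul_of_polar (w := y') (by rwa [polar_comm]) (hp 2) hz0)
      · exact Adj.mk' h1'.right hz (hp 2) h1'.ne_zero.2 (not_smul_of_polar hyy (hp 1) hz0)
    · simp only [not_exists] at hc
      have huv' : Adj Q u v := Adj.mk' hu hv huv hu0 hc
      have hz := sing_add hu hv huv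
      have hz' : Adj Q u (v + (1 : F) • u) := add_smul_adj_left huv' one_ne_zero
      rw [one_smul, add_comm] at hz'
      refine two (u + v) hz' ?_ ?_ ?_
      · have := add_smul_adj_left huv'.symm (one_ne_zero (α := F))
        rw [one_smul] at this
        exact this.symm
      · refine Adj.mk' h1.right hz (by rw [polar_add_right, polar_comm Q y u, h1.orth, h2.orth, add_zero])
          h1.ne_zero.2 (not_smul_of_polar (w := y') (by rwa [polar_comm]) ?_ hz'.ne_zero.2)
        rw [polar_add_right, polar_comm Q y' u, h1'.orth, h2'.orth, add_zero]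
      · refine Adj.mk' h1'.right hz (by rw [polar_add_right, polar_comm Q y' u, h1'.orth, h2'.orth, add_zero])
          h1'.ne_zero.2 (not_smul_of_polar hyy ?_ hz'.ne_zero.2)
        rw [polar_add_right, polar_comm Q y u, h1.orth, h2.orth, add_zero]
  · obtain ⟨z, hz0, hz, hp⟩ := exists_perp_sing hA.bn ![u, v, y, y'] hA.dim
    exact two z (Adj.mk' hu hz (hp 0) hu0 (not_smul_of_polar (w := v) (by rwa [polar_comm]) (hp 1) hz0))
      (Adj.mk' hv hz (hp 1) hv0 (not_smul_of_polar huv (hp 0) hz0)).symm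
      (Adj.mk' h1.right hz (hp 2) h1.ne_zero.2 (not_smul_of_polar (w := y') (by rwa [polar_comm]) (hp 3) hz0))
      (Adj.mk' h1'.right hz (hp 3) h1'.ne_zero.2 (not_smul_of_polar hyy (hp 2) hz0))

/-- The kernel of a perfect extension lies in the lift of a vector stabiliser. -/
theorem ker_le_K [hp : Group.IsPerfect E] (hgen : ∀ e : E, τ e ∈ EQ Q) (hc : τ.ker ≤ Subgroup.center E)
    (hu : Q u₀ = 0) (hu0 : u₀ ≠ 0) : τ.ker ≤ S.K u₀ := by
  classical
  set x₀ : S.Cov u₀ := QuotientGroup.mk 1 with hx₀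
  have hp0 : S.proj x₀ = u₀ := by rw [hx₀, proj_mk, map_one]; rfl
  -- the section
  let P : V → Prop := fun v => Q v = 0 ∧ v ≠ 0
  have hcom : ∀ v, P v → ∃ y, Adj Q u₀ y ∧ Adj Q y v := fun v hv => exists_common hA hu hv.1 hu0 hv.2
  let Φ : V → S.Cov u₀ := fun v => if h : P v then S.nbr hA (S.nbr hA x₀ (hcom v h).choose) v else x₀
  have hΦ : ∀ v y, P v → Adj Q u₀ y → Adj Q y v → Φ v = S.nbr hA (S.nbr hA x₀ y) v := fun v y hv h1 h2 => by
    simp only [Φ, dif_pos hv]
    obtain ⟨a, b⟩ := (hcom v hv).choose_spec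
    exact S.via_eq hA hv.1 hv.2 (by rwa [hp0]) b (by rwa [hp0]) h2
  have hproj : ∀ v, P v → S.proj (Φ v) = v := fun v hv => by
    obtain ⟨y, h1, h2⟩ := hcom v hv
    rw [hΦ v y hv h1 h2, S.proj_nbr hA]
    rwa [S.proj_nbr hA (by rwa [hp0])]
  have hedge : ∀ v w, Adj Q v w → Φ w = S.nbr hA (Φ v) w := fun v w h => by
    obtain ⟨z, za, zb, zc⟩ := exists_common_edge hA hu hu0 h
    have hpz := S.proj_nbr hA (x := x₀) (v := z) (by rwa [hp0])
    rw [hΦ v z ⟨h.left, h.ne_zero.1⟩ za zb.symm, hΦ w z ⟨h.right, h.ne_zero.2⟩ za zc.symm,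
      S.triangle hA (by rw [hpz]; exact zb.symm) (by rw [hpz]; exact zc.symm) h]
  have hΦ0 : Φ u₀ = x₀ := by
    obtain ⟨y, h1, h2⟩ := hcom u₀ ⟨hu, hu0⟩
    rw [hΦ u₀ y ⟨hu, hu0⟩ h1 h2]
    have := S.nbr_nbr hA (x := x₀) (v := y) (by rwa [hp0])
    rwa [hp0] at this
  -- elements of `E` respecting the section
  let H : Subgroup E :=
    { carrier := {e | ∀ v, P v → e • Φ v = Φ ((τ e : V ≃ₗ[F] V) v)}
      one_mem' := fun v _ => by simp
      mul_mem' := fun {a b} ha hb v hv => by
        rw [mul_smul, hb v hv, ha _ ⟨by rw [OQ_map_app, hv.1], (LinearEquiv.map_ne_zero_iff _).2 hv.2⟩,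
          map_mul, Subgroup.coe_mul, LinearEquiv.mul_apply]
      inv_mem' := fun {a} ha v hv => by
        have hw : P ((τ a⁻¹ : V ≃ₗ[F] V) v) := ⟨by rw [OQ_map_app, hv.1], (LinearEquiv.map_ne_zero_iff _).2 hv.2⟩
        rw [inv_smul_eq_iff, ha _ hw, ← LinearEquiv.mul_apply, ← Subgroup.coe_mul, ← map_mul,
          mul_inv_cancel, map_one]
        rfl }
  have hψ : ∀ y w, Q y = 0 → polar Q y w = 0 → S.ψ y w ∈ H := by
    intro y w hy hyw v hv
    rcases eq_or_ne y 0 with rfl | hy0
    · have e : S.ψ (0 : V) w = 1 := by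
        have := S.smul (x := (0 : V)) (a := w) (0 : F) hy hyw
        rwa [zero_smul, zero_smul, S.zero hy] at this
      rw [e]; simp
    have hyy : polar Q y y = 0 := polar_self_of_sing hy
    set e := S.ψ y w with he
    have hmem : e ∈ S.K y := S.mem_K hy hyw hyy hyw
    have hfix : (τ e : V ≃ₗ[F] V) y = y := S.K_fix hmem
    have hPy : P y := ⟨hy, hy0⟩
    have hbase : e • Φ y = Φ ((τ e : V ≃ₗ[F] V) y) := by
      rw [hfix]
      exact S.smul_eq_self (by rw [hproj y hPy]; exact hmem)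
    have hstep : ∀ a b, Adj Q a b → e • Φ a = Φ ((τ e : V ≃ₗ[F] V) a) →
        e • Φ b = Φ ((τ e : V ≃ₗ[F] V) b) := by
      intro a b hab ha
      have hab' : Adj Q ((τ e : V ≃ₗ[F] V) a) ((τ e : V ≃ₗ[F] V) b) := hab.map (τ e)
      rw [hedge a b hab, S.nbr_smul hA (by rw [hproj a ⟨hab.left, hab.ne_zero.1⟩]; exact hab), ha,
        ← hedge _ _ hab']
    obtain ⟨z, za, zb⟩ := exists_common hA hy hv.1 hy0 hv.2
    exact hstep z v zb (hstep y z za hbase)
  -- they generate
  have hsup : ∀ e : E, ∃ h ∈ H, ∃ c ∈ τ.ker, e = h * c := by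
    intro e
    have : τ e ∈ H.map τ := by
      refine (Subgroup.closure_le _).2 ?_ (hgen e)
      rintro _ ⟨x, a, hx, ha, rfl⟩
      exact ⟨S.ψ x a, hψ x a hx ha, S.lift hx ha⟩
    obtain ⟨h, hh, he⟩ := this
    exact ⟨h, hh, h⁻¹ * e, by rw [MonoidHom.mem_ker, map_mul, map_inv, he, inv_mul_cancel], by group⟩
  have htop : H = ⊤ := by
    rw [eq_top_iff, ← Group.IsPerfect.commutator_eq_top (G := E), _root_.commutator_def, Subgroup.commutator_le]
    intro a _ b _
    obtain ⟨h, hh, c, hc', rfl⟩ := hsup a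
    obtain ⟨k, hk, d, hd, rfl⟩ := hsup b
    have hc1 : ∀ g, c * g = g * c := fun g => (Subgroup.mem_center_iff.1 (hc hc') g).symm
    have hd1 : ∀ g, d * g = g * d := fun g => (Subgroup.mem_center_iff.1 (hc hd) g).symm
    have e : ⁅h * c, k * d⁆ = ⁅h, k⁆ := by
      simp only [commutatorElement_def, mul_inv_rev]
      calc h * c * (k * d) * (c⁻¹ * h⁻¹) * (d⁻¹ * k⁻¹)
          = h * (c * (k * d)) * c⁻¹ * h⁻¹ * d⁻¹ * k⁻¹ := by group
        _ = h * k * (d * h⁻¹) * d⁻¹ * k⁻¹ := by rw [hc1 (k * d)]; group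
        _ = h * k * h⁻¹ * k⁻¹ := by rw [hd1 h⁻¹]; group
    rw [e]
    exact mul_mem (mul_mem (mul_mem hh hk) (inv_mem hh)) (inv_mem hk)
  intro z hz
  have h := (htop ▸ Subgroup.mem_top z : z ∈ H) u₀ ⟨hu, hu0⟩
  rw [MonoidHom.mem_ker.1 hz, OneMemClass.coe_one, LinearEquiv.coe_one, id_eq, hΦ0, hx₀,
    MulAction.Quotient.smul_mk, smul_eq_mul, mul_one, eq_comm, QuotientGroup.eq, inv_one, one_mul] at h
  exact h

end Sys

end Cfsg.Agent.CentralExt.OrthMult
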