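import Cfsg.Agent.CentralExt.OrthMult.Comm

/-!
An invariant complement for one singular vector extends to a system of Siegel lifts.
-/

set_option autoImplicit false
set_option linter.unusedSectionVars false

namespace Cfsg.Agent.CentralExt.OrthMult

open QuadraticMap Module Cfsg.Agent.Classical Cfsg.Agent.OrthGen

universe u v w

variable {F : Type u} [Field F] {V : Type v} [AddCommGroup V] [Module F V]
  {Q : QuadraticForm F V} {E : Type w} [Group E]

/-- An invariant complement for the singular vector `u`. -/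
structure Base (Q : QuadraticForm F V) (τ : E →* OQ Q) {u : V} (hu : Q u = 0) where
  f : V → E
  lift : ∀ {a : V} (ha : polar Q u a = 0), τ (f a) = siegel Q hu ha
  add : AddOn Q u f
  conj : ∀ (e : E), (τ e : V ≃ₗ[F] V) u = u → ∀ {a : V}, polar Q u a = 0 →
    e * f a * e⁻¹ = f ((τ e : V ≃ₗ[F] V) a)

variable [FiniteDimensional F V] [Finite F]

theorem Base.exists_sys {τ : E →* OQ Q} (hA : Amb Q) (hc : τ.ker ≤ Subgroup.center E)
    (hsurj : ∀ g ∈ EQ Q, ∃ e, τ e = g) {u : V} {hu : Q u = 0} (hu0 : u ≠ 0) (B : Base Q τ hu) :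
    Nonempty (Sys Q τ) := by
  classical
  have h2p : HasTwoPairs Q := hasTwoPairs_of_five_le hA.bn (by have := hA.dim; omega)
  have htr : ∀ x, Q x = 0 → x ≠ 0 → ∃ e, (τ e : V ≃ₗ[F] V) u = x := fun x hx hx0 => by
    obtain ⟨g, hg, hgu⟩ := EQ_transitive_singular hA.bn.qNondeg h2p hu0 hu hx0 hx
    obtain ⟨e, rfl⟩ := hsurj g hg
    exact ⟨e, hgu⟩
  choose! T hT using htr
  let P : V → V → Prop := fun x a => Q x = 0 ∧ x ≠ 0 ∧ polar Q x a = 0
  let ψ : V → V → E := fun x a =>
    if P x a then T x * B.f ((τ (T x)⁻¹ : V ≃ₗ[F] V) a) * (T x)⁻¹ else 1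
  have hback : ∀ {x a : V} (e : E), (τ e : V ≃ₗ[F] V) u = x → polar Q x a = 0 →
      polar Q u ((τ e⁻¹ : V ≃ₗ[F] V) a) = 0 := by
    intro x a e he ha
    rw [← OQ_polar (τ e), ← LinearEquiv.mul_apply, ← Subgroup.coe_mul, ← map_mul, mul_inv_cancel, map_one, he]
    exact ha
  have heq : ∀ {x a : V}, Q x = 0 → x ≠ 0 → polar Q x a = 0 → ∀ e, (τ e : V ≃ₗ[F] V) u = x →
      ψ x a = e * B.f ((τ e⁻¹ : V ≃ₗ[F] V) a) * e⁻¹ := by
    intro x a hx hx0 ha e he
    simp only [ψ, if_pos (show P x a from ⟨hx, hx0, ha⟩)]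
    have hk : (τ (e⁻¹ * T x) : V ≃ₗ[F] V) u = u := by
      rw [map_mul, map_inv, Subgroup.coe_mul, LinearEquiv.mul_apply, hT x hx hx0, Subgroup.coe_inv]
      exact (LinearEquiv.symm_apply_eq _).2 he.symm
    have h := B.conj _ hk (hback _ (hT x hx hx0) ha)
    rw [← LinearEquiv.mul_apply, ← Subgroup.coe_mul, ← map_mul, mul_inv_cancel_right] at h
    rw [← h]; group
  have hzero : ∀ a, ψ 0 a = 1 := fun a => by simp [ψ, P]
  have hlift : ∀ {x a : V} (hx : Q x = 0) (ha : polar Q x a = 0), τ (ψ x a) = siegel Q hx ha := by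
    intro x a hx ha
    rcases eq_or_ne x 0 with rfl | hx0
    · rw [hzero, map_one]; ext v; simp
    rw [heq hx hx0 ha _ (hT x hx hx0), map_mul, map_mul, B.lift (hback _ (hT x hx hx0) ha)]
    simp only [map_inv]
    rw [siegel_conj]
    refine siegel_congr _ _ _ _ _ (hT x hx hx0) ?_
    show ((τ (T x) : V ≃ₗ[F] V)) ((τ (T x) : V ≃ₗ[F] V)⁻¹ a) = a
    exact LinearEquiv.apply_symm_apply _ _
  have hadd : ∀ {x a b : V}, Q x = 0 → polar Q x a = 0 → polar Q x b = 0 →
      ψ x (a + b) = ψ x a * ψ x b := by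
    intro x a b hx ha hb
    rcases eq_or_ne x 0 with rfl | hx0
    · simp [hzero]
    have hab : polar Q x (a + b) = 0 := by rw [polar_add_right, ha, hb, add_zero]
    rw [heq hx hx0 ha _ (hT x hx hx0), heq hx hx0 hb _ (hT x hx hx0), heq hx hx0 hab _ (hT x hx hx0),
      map_add, B.add _ _ (hback _ (hT x hx hx0) ha) (hback _ (hT x hx hx0) hb)]
    group
  have hconj : ∀ (e : E) {x a : V}, Q x = 0 → polar Q x a = 0 →
      e * ψ x a * e⁻¹ = ψ ((τ e : V ≃ₗ[F] V) x) ((τ e : V ≃ₗ[F] V) a) := by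
    intro e x a hx ha
    rcases eq_or_ne x 0 with rfl | hx0
    · rw [map_zero, hzero, hzero, mul_one, mul_inv_cancel]
    rw [heq hx hx0 ha _ (hT x hx hx0), heq (by rw [OQ_map_app, hx]) ((LinearEquiv.map_ne_zero_iff _).2 hx0)
      (by rw [OQ_polar, ha]) (e * T x) (by rw [map_mul, Subgroup.coe_mul, LinearEquiv.mul_apply, hT x hx hx0])]
    rw [← LinearEquiv.mul_apply, ← Subgroup.coe_mul, ← map_mul,
      show (e * T x)⁻¹ * e = (T x)⁻¹ by group]
    group
  have hx0' : ∀ {x : V}, Q x = 0 → ψ x 0 = 1 := fun {x} hx => by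
    have h := hadd hx (by simp : polar Q x 0 = 0) (by simp : polar Q x 0 = 0)
    rw [add_zero] at h; exact mul_eq_left.1 h.symm
  have hsurj' : ∀ (y x : V) (hy : Q y = 0) (hx : polar Q y x = 0), τ (ψ y x) = siegel Q hy hx :=
    fun y x hy hx => hlift hy hx
  -- scaling
  have hsmul : ∀ {x a : V} (c : F), Q x = 0 → polar Q x a = 0 → ψ (c • x) a = ψ x (c • a) := by
    intro x a c hx ha
    rcases eq_or_ne c 0 with rfl | hc'
    · rw [zero_smul, zero_smul, hzero, hx0' hx]
    rcases eq_or_ne x 0 with rfl | hx0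
    · rw [smul_zero, hzero, hzero]
    have hcx : Q (c • x) = 0 := sing_smul c hx
    have hp1 : ∀ {a}, polar Q x a = 0 → polar Q (c • x) a = 0 := fun {a} ha => by
      rw [polar_smul_left, ha, smul_zero]
    have hp2 : ∀ {a}, polar Q x a = 0 → polar Q x (c • a) = 0 := fun {a} ha => by
      rw [polar_smul_right, ha, smul_zero]
    set δ : V → E := fun a => ψ (c • x) a * (ψ x (c • a))⁻¹
    have hcen : ∀ {a}, polar Q x a = 0 → ∀ g, g * δ a = δ a * g := fun {a} ha g =>
      Subgroup.mem_center_iff.1 (hc (by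
        rw [MonoidHom.mem_ker, map_mul, map_inv, hlift hcx (hp1 ha), hlift hx (hp2 ha), mul_inv_eq_one]
        exact siegel_smul_left Q c hx ha hcx (hp2 ha) (hp1 ha))) g
    have hδ : AddOn Q x δ := by
      intro a b ha hb
      simp only [δ, smul_add, hadd hcx (hp1 ha) (hp1 hb), hadd hx (hp2 ha) (hp2 hb), mul_inv_rev]
      calc ψ (c • x) a * ψ (c • x) b * ((ψ x (c • b))⁻¹ * (ψ x (c • a))⁻¹)
          = ψ (c • x) a * δ b * (ψ x (c • a))⁻¹ := by simp only [δ]; group
        _ = δ b * δ a := by rw [hcen hb (ψ (c • x) a)]; simp only [δ]; group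
        _ = δ a * δ b := (hcen hb _).symm
    have h := eq_one_of_invariant_all hA hx hx0 hδ (fun y w hy hyw hxy hxw b hb => by
      have hfix : (τ (ψ y w) : V ≃ₗ[F] V) x = x := by
        rw [hlift hy hyw]
        exact siegel_fix Q hy hyw ((polar_comm Q y x).trans hxy) ((polar_comm Q w x).trans hxw)
      calc δ ((siegel Q hy hyw : V ≃ₗ[F] V) b) = ψ y w * δ b * (ψ y w)⁻¹ := by
            simp only [δ]
            rw [← hlift hy hyw]
            calc _ = ψ ((τ (ψ y w) : V ≃ₗ[F] V) (c • x)) ((τ (ψ y w) : V ≃ₗ[F] V) b) *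
                  (ψ ((τ (ψ y w) : V ≃ₗ[F] V) x) ((τ (ψ y w) : V ≃ₗ[F] V) (c • b)))⁻¹ := by
                  rw [map_smul, map_smul, hfix]
              _ = _ := by rw [← hconj _ hcx (hp1 hb), ← hconj _ hx (hp2 hb)]; group
        _ = δ b := by rw [hcen hb, mul_inv_cancel_right]) ha
    exact mul_inv_eq_one.1 h
  -- the line of a vector
  have hline : ∀ {x : V} (k : F), Q x = 0 → ψ x (k • x) = 1 := by
    intro x k hx
    rcases eq_or_ne x 0 with rfl | hx0
    · exact hzero _
    obtain ⟨z, hxz, -⟩ := exists_common hA hx hx hx0 hx0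
    obtain ⟨c, hc'⟩ := exists_values hA.bn hxz.indep ![0, k]
    have hxc : polar Q x c = 0 := hc' 0
    have hzc : polar Q z c = k := hc' 1
    have hkx : polar Q x ((-k) • x) = 0 := by rw [polar_smul_right, polar_self_of_sing hx, smul_zero]
    have e := hconj (ψ x c) hx hxz.orth
    rw [(commute_lifts hA hc hsurj hx hx0 hxc hxz.orth (hlift hx hxc) (hlift hx hxz.orth)).eq,
      mul_inv_cancel_right, hlift hx hxc, siegel_fix_self hx hxc, siegel_apply, hxz.orth,
      polar_comm Q c z, hzc] at e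
    simp only [zero_smul, add_zero, mul_zero, sub_zero] at e
    rw [sub_eq_add_neg, ← neg_smul, hadd hx hxz.orth hkx, eq_comm, mul_eq_left] at e
    have e2 := hadd hx hkx (by rw [polar_smul_right, polar_self_of_sing hx, smul_zero] : polar Q x (k • x) = 0)
    rw [← add_smul, neg_add_cancel, zero_smul, hx0' hx, e, one_mul] at e2
    exact e2.symm
  have hswap : ∀ {x a : V}, Q x = 0 → Q a = 0 → polar Q x a = 0 → ψ x a = ψ a (-x) := by
    intro x a hx ha hxa
    rcases eq_or_ne x 0 with rfl | hx0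
    · rw [hzero, neg_zero, hx0' ha]
    by_cases hdep : ∃ k : F, a = k • x
    · obtain ⟨k, rfl⟩ := hdep
      rw [hline k hx, hsmul k hx (by rw [polar_neg_right, polar_self_of_sing hx, neg_zero]), smul_neg,
        ← neg_smul, hline (-k) hx]
    simp only [not_exists] at hdep
    have hadj : Adj Q x a := Adj.mk' hx ha hxa hx0 hdep
    -- the interchange
    have key : ∀ {b : V}, Adj Q x b →
        ψ x b * (ψ b (-x))⁻¹ * (ψ x b * (ψ b (-x))⁻¹) = 1 := by
      intro b hxb
      obtain ⟨f₀, hf₀⟩ := exists_values hA.bn hxb.indep ![1, 0]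
      set f := f₀ + (-Q f₀) • x
      have f1 : polar Q x f = 1 := by
        simp only [f, polar_add_right, polar_smul_right, polar_self_of_sing hx, smul_zero, add_zero]
        exact hf₀ 0
      have f2 : polar Q b f = 0 := by
        simp only [f, polar_add_right, polar_smul_right, polar_comm Q b x, hxb.orth, smul_zero, add_zero]
        exact hf₀ 1
      have hf : Q f = 0 := by
        simp only [f, qf_add, QuadraticMap.map_smul, hx, polar_smul_right, polar_comm Q f₀ x,
          show polar Q x f₀ = 1 from hf₀ 0, smul_eq_mul]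
        ring
      have hi : LinearIndependent F ![x, b, f] := by
        rw [Fintype.linearIndependent_iff]
        intro g hg
        rw [Fin.sum_univ_three] at hg
        simp only [Matrix.cons_val_zero, Matrix.cons_val_one, Matrix.cons_val_two, Matrix.head_cons,
          Matrix.tail_cons] at hg
        have e1 := congrArg (fun z => polar Q x z) hg
        simp only [polar_add_right, polar_smul_right, polar_self_of_sing hx, hxb.orth, f1, polar_zero_right,
          smul_eq_mul, mul_zero, mul_one, zero_add] at e1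
        rw [e1, zero_smul, add_zero] at hg
        obtain ⟨a', b'⟩ := LinearIndependent.pair_iff.1 hxb.indep _ _ hg
        intro i; fin_cases i <;> assumption
      obtain ⟨t₀, ht₀⟩ := exists_values hA.bn hi ![0, 1, 0]
      set t := t₀ + (-Q t₀) • b
      have t1 : polar Q x t = 0 := by
        simp only [t, polar_add_right, polar_smul_right, hxb.orth, smul_zero, add_zero]
        exact ht₀ 0
      have t2 : polar Q b t = 1 := by
        simp only [t, polar_add_right, polar_smul_right, polar_self_of_sing hxb.right, smul_zero, add_zero]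
        exact ht₀ 1
      have ht : Q t = 0 := by
        simp only [t, qf_add, QuadraticMap.map_smul, hxb.right, polar_smul_right, polar_comm Q t₀ b,
          show polar Q b t₀ = 1 from ht₀ 1, smul_eq_mul]
        ring
      have hfb : polar Q f b = 0 := (polar_comm Q f b).trans f2
      have htx : polar Q t (-x) = 0 := by rw [polar_neg_right, polar_comm, t1, neg_zero]
      have gb1 : (siegel Q hf hfb : V ≃ₗ[F] V) b = b := by
        rw [siegel_apply, hfb, polar_self_of_sing hxb.right]; simp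
      have gx1 : (siegel Q hf hfb : V ≃ₗ[F] V) x = x + b := by
        rw [siegel_apply, polar_comm Q f x, f1, polar_comm Q b x, hxb.orth, hxb.right]
        simp
      have gb2 : (siegel Q ht htx : V ≃ₗ[F] V) b = b - x := by
        rw [siegel_apply, polar_comm Q t b, t2, polar_neg_left, hxb.orth, QuadraticMap.map_neg, hx]
        simp [sub_eq_add_neg]
      have gx2 : (siegel Q ht htx : V ≃ₗ[F] V) x = x := by
        rw [siegel_apply, polar_comm Q t x, t1, polar_neg_left, polar_self_of_sing hx]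
        simp
      set e := ψ f b * ψ t (-x) * ψ f b
      have hτe : τ e = siegel Q hf hfb * siegel Q ht htx * siegel Q hf hfb := by
        rw [map_mul, map_mul, hlift hf hfb, hlift ht htx]
      have hex : (τ e : V ≃ₗ[F] V) x = b := by
        rw [hτe, Subgroup.coe_mul, Subgroup.coe_mul, LinearEquiv.mul_apply, LinearEquiv.mul_apply, gx1,
          map_add, gx2, gb2, show x + (b - x) = b by abel, gb1]
      have heb : (τ e : V ≃ₗ[F] V) b = -x := by
        rw [hτe, Subgroup.coe_mul, Subgroup.coe_mul, LinearEquiv.mul_apply, LinearEquiv.mul_apply, gb1,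
          gb2, map_sub, gb1, gx1]
        abel
      have hbx : polar Q b (-x) = 0 := by rw [polar_neg_right, polar_comm, hxb.orth, neg_zero]
      have hcen : e * (ψ x b * (ψ b (-x))⁻¹) = ψ x b * (ψ b (-x))⁻¹ * e := by
        refine Subgroup.mem_center_iff.1 (hc ?_) e
        rw [MonoidHom.mem_ker, map_mul, map_inv, hlift hx hxb.orth, hlift hxb.right hbx, mul_inv_eq_one]
        exact siegel_swap Q hx hxb.right hxb.orth hbx
      have h1 : e * (ψ x b * (ψ b (-x))⁻¹) * e⁻¹ = ψ b (-x) * (ψ x b)⁻¹ := by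
        rw [show e * (ψ x b * (ψ b (-x))⁻¹) * e⁻¹ = (e * ψ x b * e⁻¹) * (e * ψ b (-x) * e⁻¹)⁻¹ by group,
          hconj e hx hxb.orth, hconj e hxb.right hbx, hex, heb, map_neg, hex, ← neg_one_smul F x,
          hsmul (-1) hx (by rw [polar_neg_right, hxb.orth, neg_zero]), neg_one_smul, neg_one_smul, neg_neg]
      rw [hcen, mul_inv_cancel_right] at h1
      conv_lhs => arg 1; rw [h1]
      group
    have h2 : (2 : F)⁻¹ + 2⁻¹ = 1 := by rw [← two_mul, mul_inv_cancel₀ hA.two]
    have hb : Adj Q x ((2 : F)⁻¹ • a) := by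
      refine Adj.mk' hx (sing_smul _ ha) (by rw [polar_smul_right, hxa, smul_zero]) hx0 fun k e => ?_
      have := congrArg ((2 : F) • ·) e
      simp only [smul_smul, mul_inv_cancel₀ hA.two, one_smul] at this
      exact hdep _ this
    have hk := key hb
    have hbx : polar Q ((2 : F)⁻¹ • a) (-x) = 0 := by rw [polar_neg_right, polar_comm, hb.orth, neg_zero]
    have hax : polar Q a (-x) = 0 := by rw [polar_neg_right, polar_comm, hxa, neg_zero]
    have e1 : ψ x a = ψ x ((2 : F)⁻¹ • a) * ψ x ((2 : F)⁻¹ • a) := by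
      rw [← hadd hx hb.orth hb.orth, ← add_smul, h2, one_smul]
    have e2 : ψ a (-x) = ψ ((2 : F)⁻¹ • a) (-x) * ψ ((2 : F)⁻¹ • a) (-x) := by
      rw [hsmul _ ha hax, ← hadd ha (by rw [polar_smul_right, hax, smul_zero])
        (by rw [polar_smul_right, hax, smul_zero]), ← add_smul, h2, one_smul]
    have hd : ∀ g : E, g * (ψ x ((2 : F)⁻¹ • a) * (ψ ((2 : F)⁻¹ • a) (-x))⁻¹) =
        ψ x ((2 : F)⁻¹ • a) * (ψ ((2 : F)⁻¹ • a) (-x))⁻¹ * g := fun g => by
      refine Subgroup.mem_center_iff.1 (hc ?_) g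
      rw [MonoidHom.mem_ker, map_mul, map_inv, hlift hx hb.orth, hlift hb.right hbx, mul_inv_eq_one]
      exact siegel_swap Q hx hb.right hb.orth hbx
    set A := ψ x ((2 : F)⁻¹ • a)
    set D := ψ ((2 : F)⁻¹ • a) (-x)
    rw [e1, e2, ← mul_inv_eq_one, mul_inv_rev]
    calc A * A * (D⁻¹ * D⁻¹) = A * (A * D⁻¹) * D⁻¹ := by group
      _ = A * D⁻¹ * (A * D⁻¹) := by rw [hd A]; group
      _ = 1 := hk
  exact ⟨{ ψ := ψ, lift := hlift, add := hadd, smul := hsmul, conj := hconj, swap := hswap }⟩

end Cfsg.Agent.CentralExt.OrthMult
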