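import Cfsg.Agent.CentralExt.OrthMult.Geom

/-!
The Eichler group is generated by the root groups of one hyperbolic pair; an element of the
Eichler group fixing a hyperbolic pair comes from the Eichler group of the orthogonal space.
-/

set_option autoImplicit false
set_option linter.unusedSectionVars false

namespace Cfsg.Agent.CentralExt.OrthMult

open QuadraticMap Module Cfsg.Agent.Classical Cfsg.Agent.OrthGen

universe u v

variable {F : Type u} [Field F] {V : Type v} [AddCommGroup V] [Module F V]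
  {Q : QuadraticForm F V}

/-- The component of a vector in a hyperbolic pair. -/
def pproj (Q : QuadraticForm F V) (p : V × V) (a : V) : V :=
  polar Q p.2 a • p.1 + polar Q p.1 a • p.2

theorem pproj_add (p : V × V) (a b : V) : pproj Q p (a + b) = pproj Q p a + pproj Q p b := by
  simp only [pproj, polar_add_right, add_smul]; abel

theorem pproj_of_perp {p : V × V} {a : V} (h1 : polar Q p.1 a = 0) (h2 : polar Q p.2 a = 0) :
    pproj Q p a = 0 := by simp [pproj, h1, h2]

theorem polar_pproj_fst {p : V × V} (hp : IsPair Q p.1 p.2) (a : V) :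
    polar Q p.1 (pproj Q p a) = polar Q p.1 a := by
  simp [pproj, polar_add_right, polar_smul_right, polar_self_of_sing hp.1, hp.2.2]

theorem polar_pproj_snd {p : V × V} (hp : IsPair Q p.1 p.2) (a : V) :
    polar Q p.2 (pproj Q p a) = polar Q p.2 a := by
  simp [pproj, polar_add_right, polar_smul_right, polar_self_of_sing hp.2.1,
    (polar_comm Q p.2 p.1).trans hp.2.2]

/-- Two pairs orthogonal to each other. -/
def PPerp (Q : QuadraticForm F V) (p r : V × V) : Prop :=
  polar Q p.1 r.1 = 0 ∧ polar Q p.1 r.2 = 0 ∧ polar Q p.2 r.1 = 0 ∧ polar Q p.2 r.2 = 0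

theorem PPerp.symm {p r : V × V} (h : PPerp Q p r) : PPerp Q r p :=
  ⟨(polar_comm Q _ _).trans h.1, (polar_comm Q _ _).trans h.2.2.1, (polar_comm Q _ _).trans h.2.1,
    (polar_comm Q _ _).trans h.2.2.2⟩

theorem PPerp.swap_left {p r : V × V} (h : PPerp Q p r) : PPerp Q (p.2, p.1) r :=
  ⟨h.2.2.1, h.2.2.2, h.1, h.2.1⟩

theorem PPerp.pproj {p r : V × V} (h : PPerp Q p r) (a : V) :
    polar Q r.1 (pproj Q p a) = 0 ∧ polar Q r.2 (pproj Q p a) = 0 := by
  have e1 : polar Q r.1 p.1 = 0 := h.symm.1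
  have e2 : polar Q r.1 p.2 = 0 := h.symm.2.1
  have e3 : polar Q r.2 p.1 = 0 := h.symm.2.2.1
  have e4 : polar Q r.2 p.2 = 0 := h.symm.2.2.2
  constructor <;> simp [OrthMult.pproj, polar_add_right, polar_smul_right, e1, e2, e3, e4]

variable [FiniteDimensional F V] [Finite F]

/-- The Eichler group is the commutator subgroup. -/
theorem EQ_eq_commutator (hB : BNondeg Q) (h2 : (2 : F) ≠ 0) (hn : 5 ≤ finrank F V) :
    EQ Q = commutator (OQ Q) := by
  have : Finite V := Module.finite_of_finite F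
  rw [← singSiegel_eq_commutator hB h2 hn]
  refine le_antisymm ((Subgroup.closure_le _).2 ?_) ((Subgroup.closure_le _).2 ?_)
  · rintro _ ⟨u, a, hu, ha, rfl⟩
    exact siegel_mem_singSiegel hB (hasTwoPairs_of_five_le hB hn) hu ha
  · rintro _ ⟨u, a, hu, ha, -, rfl⟩
    exact siegel_mem_EQ Q hu ha

/-- The Eichler group of the plane extension meets the isometries of the summand in its Eichler
group. -/
theorem mem_EQ_of_hypLift (hB : BNondeg Q) (h2 : (2 : F) ≠ 0) (hn : 5 ≤ finrank F V) {k : OQ Q}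
    (hk : hypLift Q k ∈ EQ (hypAdd Q)) : k ∈ EQ Q := by
  classical
  have : Finite V := Module.finite_of_finite F
  have hB' := bNondeg_hypAdd hB
  have hn' : 5 ≤ finrank F ((F × F) × V) := by rw [finrank_prod, finrank_prod, finrank_self]; omega
  have hR := OrthGen.RQ_eq_top hB (notExceptional_of_two_ne_zero (Q := Q) h2)
  have hR' := OrthGen.RQ_eq_top hB' (notExceptional_of_two_ne_zero (Q := hypAdd Q) h2)
  rw [EQ_eq_commutator hB' h2 hn', commutator_eq_ker_sgnHom h2 hB' (by omega) hR', MonoidHom.mem_ker] at hk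
  rw [EQ_eq_commutator hB h2 hn, commutator_eq_ker_sgnHom h2 hB (by omega) hR, MonoidHom.mem_ker, ← hk]
  suffices h : sgnHom hB hR = (sgnHom hB' hR').comp (hypLift Q) from DFunLike.congr_fun h k
  refine MonoidHom.eq_of_eqOn_dense (s := {g | ∃ (x : V) (hx : Q x ≠ 0), g = reflQ Q x hx}) hR ?_
  rintro _ ⟨x, hx, rfl⟩
  obtain ⟨h1, e⟩ := hypLift_reflQ hx
  rw [MonoidHom.comp_apply, e, sgnHom_refl h2 hB hR hx, sgnHom_refl h2 hB' hR' h1]
  have : hypAdd Q ((0, 0), x) = Q x := by simp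
  simp [this]

/-- The root groups of one hyperbolic pair generate the Eichler group. -/
theorem EQ_le_of_pair (hB : BNondeg Q) {e f : V} (hp : IsPair Q e f) {T : Subgroup (OQ Q)}
    (he : ∀ x (hx : polar Q e x = 0), siegel Q hp.1 hx ∈ T)
    (hf : ∀ x (hx : polar Q f x = 0), siegel Q hp.2.1 hx ∈ T) : EQ Q ≤ T := by
  refine (Subgroup.closure_le _).2 ?_
  rintro _ ⟨y, x, hy, hyx, rfl⟩
  by_cases hy0 : y = 0
  · subst hy0
    have : siegel Q hy hyx = 1 := by ext v; simp
    rw [this]; exact one_mem _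
  -- it suffices to move `y` onto one of the two lines
  have fin : ∀ h ∈ T, ∀ (c : F) (w : V), (w = e ∨ w = f) → (h : V ≃ₗ[F] V) y = c • w →
      siegel Q hy hyx ∈ T := by
    intro h hh c w hw hhy
    suffices h * siegel Q hy hyx * h⁻¹ ∈ T by
      have := mul_mem (mul_mem (inv_mem hh) this) hh
      simpa [mul_assoc] using this
    rw [siegel_conj]
    have hw0 : Q w = 0 := by rcases hw with rfl | rfl; exacts [hp.1, hp.2.1]
    have hwm : ∀ z (hz : polar Q w z = 0), siegel Q hw0 hz ∈ T := by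
      rcases hw with rfl | rfl; exacts [he, hf]
    have h1 : polar Q (c • w) ((h : V ≃ₗ[F] V) x) = 0 := by rw [← hhy, OQ_polar, hyx]
    have hc0 : c ≠ 0 := fun e0 => hy0 ((LinearEquiv.map_eq_zero_iff _).1 (by rw [hhy, e0, zero_smul]))
    have h2 : polar Q w ((h : V ≃ₗ[F] V) x) = 0 := by
      rw [polar_smul_left, smul_eq_mul] at h1
      exact (mul_eq_zero.1 h1).resolve_left hc0
    rw [siegel_congr Q _ _ (sing_smul c hw0) h1 hhy rfl,
      siegel_smul_left Q c hw0 h2 (sing_smul c hw0) (by rw [polar_smul_right, h2, smul_zero]) h1]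
    exact hwm _ _
  -- the case where `y` is not orthogonal to one of the two
  have step : ∀ h ∈ T, ∀ (a b : V), (a = e ∧ b = f ∨ a = f ∧ b = e) →
      polar Q a ((h : V ≃ₗ[F] V) y) ≠ 0 → siegel Q hy hyx ∈ T := by
    intro h hh a b hab hne
    set y' := (h : V ≃ₗ[F] V) y
    set c := polar Q a y'
    have hab' : IsPair Q a b ∧ ∀ z (hz : polar Q a z = 0) (ha : Q a = 0), siegel Q ha hz ∈ T := by
      rcases hab with ⟨rfl, rfl⟩ | ⟨rfl, rfl⟩
      exacts [⟨hp, fun z hz _ => he z hz⟩, ⟨hp.symm, fun z hz _ => hf z hz⟩]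
    obtain ⟨hab', hTa⟩ := hab'
    obtain ⟨z, hz, -, -, e2⟩ := exists_siegel_pair (u := a) (y := b) (z := c⁻¹ • y') hab'.1 hab'.2.1
      (by rw [QuadraticMap.map_smul, OQ_map_app, hy, smul_zero]) hab'.2.2
      (by rw [polar_smul_right, smul_eq_mul, inv_mul_cancel₀ hne])
    refine fin (((siegel Q hab'.1 hz)⁻¹ : OQ Q) * h) (mul_mem (inv_mem (hTa z hz hab'.1)) hh) c b
      (by rcases hab with ⟨-, rfl⟩ | ⟨-, rfl⟩; exacts [Or.inr rfl, Or.inl rfl]) ?_
    rw [Subgroup.coe_mul, LinearEquiv.mul_apply]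
    refine (LinearEquiv.symm_apply_eq _).2 ?_
    show y' = (siegel Q hab'.1 hz : V ≃ₗ[F] V) (c • b)
    rw [map_smul, e2, smul_smul, mul_inv_cancel₀ hne, one_smul]
  by_cases h1 : polar Q e y = 0
  · by_cases h2 : polar Q f y = 0
    · obtain ⟨v, hv⟩ := exists_dual hB hy0
      set z := v - pproj Q (e, f) v with hz
      have hez : polar Q e z = 0 := by rw [hz, polar_sub_right, polar_pproj_fst (p := (e, f)) hp, sub_self]
      have hyz : polar Q y z = 1 := by
        rw [hz, polar_sub_right, hv]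
        simp [pproj, polar_add_right, polar_smul_right, polar_comm Q y e, polar_comm Q y f, h1, h2]
      refine step (siegel Q hp.1 hez) (he z hez) f e (Or.inr ⟨rfl, rfl⟩) ?_
      rw [siegel_apply, h1, polar_comm Q z y, hyz, polar_sub_right, polar_sub_right, polar_add_right,
        polar_smul_right, polar_smul_right, polar_smul_right, h2, (polar_comm Q f e).trans hp.2.2]
      simp
    · exact step 1 (one_mem _) f e (Or.inr ⟨rfl, rfl⟩) h2
  · exact step 1 (one_mem _) e f (Or.inl ⟨rfl, rfl⟩) h1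

/-- A hyperbolic pair orthogonal to few vectors. -/
theorem exists_pair_perp (hB : BNondeg Q) {k : ℕ} (s : Fin k → V) (hk : k + 3 ≤ finrank F V)
    (hs : ∀ e, (∀ i, polar Q (s i) e = 0) → e ≠ 0 →
      ∃ y, polar Q e y = 1 ∧ ∀ i, polar Q (s i) y = 0) :
    ∃ p : V × V, IsPair Q p.1 p.2 ∧ ∀ i, polar Q (s i) p.1 = 0 ∧ polar Q (s i) p.2 = 0 := by
  obtain ⟨e, he0, he, hpe⟩ := exists_perp_sing hB s hk
  obtain ⟨y, hy1, hy⟩ := hs e hpe he0
  refine ⟨(e, y + (-Q y) • e), ⟨he, ?_, ?_⟩, fun i => ⟨hpe i, ?_⟩⟩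
  · rw [qf_add, sing_smul _ he, polar_smul_right, polar_comm Q y e, hy1, smul_eq_mul]; ring
  · show polar Q e (y + (-Q y) • e) = 1
    rw [polar_add_right, polar_smul_right, polar_self_of_sing he, hy1, smul_zero, add_zero]
  · show polar Q (s i) (y + (-Q y) • e) = 0
    rw [polar_add_right, polar_smul_right, hy i, hpe i, smul_zero, add_zero]

/-- Three pairwise orthogonal hyperbolic pairs and an anisotropic vector orthogonal to them. -/
theorem exists_frame (hB : BNondeg Q) (hn : 7 ≤ finrank F V) :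
    ∃ (p r s : V × V) (z : V), IsPair Q p.1 p.2 ∧ IsPair Q r.1 r.2 ∧ IsPair Q s.1 s.2 ∧
      PPerp Q p r ∧ PPerp Q p s ∧ PPerp Q r s ∧ Q z ≠ 0 ∧
      polar Q p.1 z = 0 ∧ polar Q p.2 z = 0 ∧ polar Q r.1 z = 0 ∧ polar Q r.2 z = 0 ∧
      polar Q s.1 z = 0 ∧ polar Q s.2 z = 0 := by
  obtain ⟨p, hp, -⟩ := exists_pair_perp hB (fun i : Fin 0 => i.elim0) (by omega) fun e _ he => by
    obtain ⟨y, hy⟩ := exists_dual hB he
    exact ⟨y, hy, fun i => i.elim0⟩
  obtain ⟨r, hr, hpr⟩ := exists_pair_perp hB ![p.1, p.2] (by omega) fun e hpe he => by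
    obtain ⟨y, hy⟩ := exists_dual hB he
    have a1 : polar Q e p.1 = 0 := (polar_comm Q _ _).trans (hpe 0)
    have a2 : polar Q e p.2 = 0 := (polar_comm Q _ _).trans (hpe 1)
    refine ⟨y - pproj Q p y, ?_, fun i => ?_⟩
    · rw [polar_sub_right, hy]
      simp [pproj, polar_add_right, polar_smul_right, a1, a2]
    · fin_cases i
      · show polar Q p.1 _ = 0
        rw [polar_sub_right, polar_pproj_fst hp, sub_self]
      · show polar Q p.2 _ = 0
        rw [polar_sub_right, polar_pproj_snd hp, sub_self]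
  have hPR : PPerp Q p r := ⟨(hpr 0).1, (hpr 0).2, (hpr 1).1, (hpr 1).2⟩
  -- orthogonal projection away from both
  have proj : ∀ y, polar Q p.1 (y - pproj Q p y - pproj Q r y) = 0 ∧
      polar Q p.2 (y - pproj Q p y - pproj Q r y) = 0 ∧
      polar Q r.1 (y - pproj Q p y - pproj Q r y) = 0 ∧
      polar Q r.2 (y - pproj Q p y - pproj Q r y) = 0 := fun y => by
    simp only [polar_sub_right, polar_pproj_fst hp, polar_pproj_snd hp, polar_pproj_fst hr,
      polar_pproj_snd hr, (hPR.pproj y).1, (hPR.pproj y).2, (hPR.symm.pproj y).1, (hPR.symm.pproj y).2,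
      sub_zero, sub_self, and_self]
  obtain ⟨s, hs, hps⟩ := exists_pair_perp hB ![p.1, p.2, r.1, r.2] hn fun e hpe he => by
    obtain ⟨y, hy⟩ := exists_dual hB he
    have a1 : polar Q e p.1 = 0 := (polar_comm Q _ _).trans (hpe 0)
    have a2 : polar Q e p.2 = 0 := (polar_comm Q _ _).trans (hpe 1)
    have a3 : polar Q e r.1 = 0 := (polar_comm Q _ _).trans (hpe 2)
    have a4 : polar Q e r.2 = 0 := (polar_comm Q _ _).trans (hpe 3)
    refine ⟨y - pproj Q p y - pproj Q r y, ?_, fun i => ?_⟩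
    · rw [polar_sub_right, polar_sub_right, hy]
      simp [pproj, polar_add_right, polar_smul_right, a1, a2, a3, a4]
    · obtain ⟨b1, b2, b3, b4⟩ := proj y
      fin_cases i <;> assumption
  have hPS : PPerp Q p s := ⟨(hps 0).1, (hps 0).2, (hps 1).1, (hps 1).2⟩
  have hRS : PPerp Q r s := ⟨(hps 2).1, (hps 2).2, (hps 3).1, (hps 3).2⟩
  -- a nonzero vector orthogonal to the three pairs
  obtain ⟨x, hx0, hx⟩ : ∃ x, x ≠ 0 ∧ ∀ i, polar Q (![p.1, p.2, r.1, r.2, s.1, s.2] i) x = 0 := by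
    set S := Submodule.span F (Set.range ![p.1, p.2, r.1, r.2, s.1, s.2])
    have hlt : finrank F ↥S ≤ 6 :=
      (finrank_range_le_card (R := F) ![p.1, p.2, r.1, r.2, s.1, s.2]).trans_eq (Fintype.card_fin 6)
    have hne : perpSub Q S ≠ ⊥ := fun e => by
      have h1 := finrank_orthogonal_polar hB S
      rw [e, finrank_bot] at h1
      omega
    obtain ⟨x, hx, hx0⟩ := (Submodule.ne_bot_iff _).1 hne
    exact ⟨x, hx0, fun i => hx _ (Submodule.subset_span ⟨i, rfl⟩)⟩
  obtain ⟨y, hy⟩ := exists_dual hB hx0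
  set y' := y - pproj Q p y - pproj Q r y - pproj Q s y with hy'
  have b : polar Q p.1 y' = 0 ∧ polar Q p.2 y' = 0 ∧ polar Q r.1 y' = 0 ∧ polar Q r.2 y' = 0 ∧
      polar Q s.1 y' = 0 ∧ polar Q s.2 y' = 0 := by
    simp only [hy', polar_sub_right, polar_pproj_fst hp, polar_pproj_snd hp, polar_pproj_fst hr,
      polar_pproj_snd hr, polar_pproj_fst hs, polar_pproj_snd hs, (hPR.pproj y).1, (hPR.pproj y).2,
      (hPR.symm.pproj y).1, (hPR.symm.pproj y).2, (hPS.pproj y).1, (hPS.pproj y).2,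
      (hPS.symm.pproj y).1, (hPS.symm.pproj y).2, (hRS.pproj y).1, (hRS.pproj y).2,
      (hRS.symm.pproj y).1, (hRS.symm.pproj y).2, sub_zero, sub_self, and_self]
  have hxy : polar Q x y' = 1 := by
    have c : ∀ i, polar Q x (![p.1, p.2, r.1, r.2, s.1, s.2] i) = 0 := fun i =>
      (polar_comm Q _ _).trans (hx i)
    have c1 : polar Q x p.1 = 0 := c 0
    have c2 : polar Q x p.2 = 0 := c 1
    have c3 : polar Q x r.1 = 0 := c 2
    have c4 : polar Q x r.2 = 0 := c 3
    have c5 : polar Q x s.1 = 0 := c 4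
    have c6 : polar Q x s.2 = 0 := c 5
    simp [hy', pproj, polar_sub_right, polar_add_right, polar_smul_right, hy, c1, c2, c3, c4, c5, c6]
  obtain ⟨b1, b2, b3, b4, b5, b6⟩ := b
  by_cases hxq : Q x = 0
  · by_cases hyq : Q y' = 0
    · refine ⟨p, r, s, x + y', hp, hr, hs, hPR, hPS, hRS, by rw [qf_add, hxq, hyq, hxy]; simp, ?_⟩
      simp only [polar_add_right, b1, b2, b3, b4, b5, b6, add_zero]
      exact ⟨hx 0, hx 1, hx 2, hx 3, hx 4, hx 5⟩
    · exact ⟨p, r, s, y', hp, hr, hs, hPR, hPS, hRS, hyq, b1, b2, b3, b4, b5, b6⟩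
  · exact ⟨p, r, s, x, hp, hr, hs, hPR, hPS, hRS, hxq, hx 0, hx 1, hx 2, hx 3, hx 4, hx 5⟩

end Cfsg.Agent.CentralExt.OrthMult
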