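import Cfsg.Agent.OrthGen.Siegel
import Cfsg.Agent.Classical.OrthSimple

/-!
Singular vectors in a nondegenerate quadratic space of dimension at least seven: prescribed
values, common neighbours, and the vectors needed to move along the polar graph.
-/

set_option autoImplicit false

namespace Cfsg.Agent.CentralExt.OrthMult

open QuadraticMap Module Cfsg.Agent.Classical Cfsg.Agent.OrthGen

universe u v

variable {F : Type u} [Field F] {V : Type v} [AddCommGroup V] [Module F V]
  {Q : QuadraticForm F V}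

/-- The standing hypotheses on the space. -/
structure Amb (Q : QuadraticForm F V) : Prop where
  bn : BNondeg Q
  dim : 7 ≤ finrank F V
  two : (2 : F) ≠ 0

theorem polar_self_of_sing {x : V} (h : Q x = 0) : polar Q x x = 0 := by
  rw [polar_self, h, smul_zero]

theorem sing_smul {x : V} (c : F) (h : Q x = 0) : Q (c • x) = 0 := by
  rw [QuadraticMap.map_smul, h, smul_zero]

theorem sing_neg {x : V} (h : Q x = 0) : Q (-x) = 0 := by rw [QuadraticMap.map_neg, h]

theorem sing_add {x y : V} (hx : Q x = 0) (hy : Q y = 0) (h : polar Q x y = 0) : Q (x + y) = 0 := by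
  rw [qf_add, hx, hy, h]; simp

variable [FiniteDimensional F V]

/-- Prescribed inner products with an independent family. -/
theorem exists_values (hB : BNondeg Q) {k : ℕ} {s : Fin k → V} (hs : LinearIndependent F s)
    (c : Fin k → F) : ∃ y, ∀ i, polar Q (s i) y = c i := by
  classical
  set Φ : V →ₗ[F] Dual F V := Q.polarBilin with hΦ
  have hinj : Function.Injective Φ := LinearMap.ker_eq_bot.1 <| LinearMap.ker_eq_bot'.2 fun x hx =>
    hB x fun y => DFunLike.congr_fun hx y
  have hsurj : Function.Surjective Φ :=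
    (LinearMap.injective_iff_surjective_of_finrank_eq_finrank (Subspace.dual_finrank_eq).symm).1 hinj
  obtain ⟨g, hg⟩ := LinearMap.exists_extend
    ((Basis.span hs).constr F c)
  obtain ⟨y, hy⟩ := hsurj g
  refine ⟨y, fun i => ?_⟩
  rw [polar_comm]
  have h1 := DFunLike.congr_fun hy (s i)
  rw [hΦ, polarBilin_apply_apply] at h1
  rw [h1]
  have h2 := DFunLike.congr_fun hg (Basis.span hs i)
  rw [LinearMap.comp_apply, Submodule.subtype_apply, Basis.constr_basis] at h2
  rw [← h2, Basis.span_apply]

variable [Finite F]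

/-- A singular vector orthogonal to few given vectors. -/
theorem exists_perp_sing (hB : BNondeg Q) {k : ℕ} (s : Fin k → V) (hk : k + 3 ≤ finrank F V) :
    ∃ z, z ≠ 0 ∧ Q z = 0 ∧ ∀ i, polar Q (s i) z = 0 := by
  obtain ⟨z, hzS, hz0, hz⟩ := Cfsg.Agent.Forms.exists_singular_vector_of_three_le Q
    (S := perpSub Q (Submodule.span F (Set.range s))) (by
      rw [finrank_orthogonal_polar hB]
      have hs : finrank F ↥(Submodule.span F (Set.range s)) ≤ k :=
        (finrank_range_le_card (R := F) s).trans_eq (Fintype.card_fin k)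
      omega)
  exact ⟨z, hz0, hz, fun i => hzS (s i) (Submodule.subset_span ⟨i, rfl⟩)⟩

/-- Two singular vectors joined in the polar graph: orthogonal and independent. -/
structure Adj (Q : QuadraticForm F V) (x y : V) : Prop where
  left : Q x = 0
  right : Q y = 0
  orth : polar Q x y = 0
  indep : LinearIndependent F ![x, y]

omit [FiniteDimensional F V] [Finite F] in
theorem Adj.ne_zero {x y : V} (h : Adj Q x y) : x ≠ 0 ∧ y ≠ 0 :=
  ⟨h.indep.ne_zero 0, h.indep.ne_zero 1⟩

omit [FiniteDimensional F V] [Finite F] in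
theorem Adj.symm {x y : V} (h : Adj Q x y) : Adj Q y x :=
  ⟨h.right, h.left, (polar_comm Q y x).trans h.orth, LinearIndependent.pair_symm_iff.1 h.indep⟩

omit [FiniteDimensional F V] [Finite F] in
theorem Adj.mk' {x y : V} (hx : Q x = 0) (hy : Q y = 0) (hxy : polar Q x y = 0) (hx0 : x ≠ 0)
    (h : ∀ c : F, y ≠ c • x) : Adj Q x y :=
  ⟨hx, hy, hxy, linearIndependent_fin2.2 ⟨fun hy0 => h 0 (by rw [zero_smul]; exact hy0), fun a ha => by
    rcases eq_or_ne a 0 with rfl | ha0
    · exact hx0 (by simpa using ha.symm)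
    · exact h a⁻¹ (by
        have e : a • y = x := by simpa using ha
        rw [← e, smul_smul, inv_mul_cancel₀ ha0, one_smul])⟩⟩

/-- A dual vector: inner product one. -/
theorem exists_dual (hB : BNondeg Q) {x : V} (hx : x ≠ 0) : ∃ y, polar Q x y = 1 := by
  obtain ⟨y, hy⟩ := exists_values hB (s := ![x]) (LinearIndependent.of_subsingleton 0 hx) ![1]
  exact ⟨y, hy 0⟩

omit [FiniteDimensional F V] [Finite F] in
theorem not_smul_of_dual {x x' z : V} (hx : polar Q x x' = 1) (hz : polar Q x' z = 0)
    (hz0 : z ≠ 0) (c : F) : z ≠ c • x := by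
  intro e
  rw [e, polar_smul_right, polar_comm, hx, smul_eq_mul, mul_one] at hz
  rw [e, hz, zero_smul] at hz0
  exact hz0 rfl

omit [FiniteDimensional F V] [Finite F] in
theorem not_smul_of_polar {w x z : V} (h : polar Q w x ≠ 0) (hz : polar Q w z = 0)
    (hz0 : z ≠ 0) (c : F) : z ≠ c • x := by
  intro e
  rw [e, polar_smul_right, smul_eq_mul] at hz
  rw [e, (mul_eq_zero.1 hz).resolve_right h, zero_smul] at hz0
  exact hz0 rfl

omit [FiniteDimensional F V] [Finite F] in
theorem add_smul_adj_left {x y : V} (h : Adj Q x y) {k : F} (hk : k ≠ 0) : Adj Q x (y + k • x) :=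
  Adj.mk' h.left (sing_add h.right (sing_smul k h.left)
      (by rw [polar_smul_right, polar_comm, h.orth, smul_zero]))
    (by rw [polar_add_right, h.orth, polar_smul_right, polar_self_of_sing h.left, smul_zero, add_zero])
    h.ne_zero.1 fun c e => by
      have := LinearIndependent.pair_iff.1 h.indep (k - c) 1 (by
        rw [sub_smul, one_smul]
        linear_combination (norm := module) e)
      exact one_ne_zero this.2

omit [FiniteDimensional F V] [Finite F] in
theorem Adj.map {x y : V} (h : Adj Q x y) (g : OQ Q) :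
    Adj Q ((g : V ≃ₗ[F] V) x) ((g : V ≃ₗ[F] V) y) := by
  refine ⟨by rw [OQ_map_app, h.left], by rw [OQ_map_app, h.right], by rw [OQ_polar, h.orth], ?_⟩
  rw [LinearIndependent.pair_iff]
  intro a b e
  refine LinearIndependent.pair_iff.1 h.indep a b ((g : V ≃ₗ[F] V).injective ?_)
  rw [map_add, map_smul, map_smul, e, map_zero]

variable (hA : Amb Q)
include hA

/-- A common neighbour of any two nonzero singular vectors. -/
theorem exists_common {x y : V} (hx : Q x = 0) (hy : Q y = 0) (hx0 : x ≠ 0) (hy0 : y ≠ 0) :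
    ∃ z, Adj Q x z ∧ Adj Q z y := by
  obtain ⟨x', hx'⟩ := exists_dual hA.bn hx0
  obtain ⟨y', hy'⟩ := exists_dual hA.bn hy0
  obtain ⟨z, hz0, hz, hp⟩ := exists_perp_sing hA.bn ![x, y, x', y'] (by have := hA.dim; omega)
  refine ⟨z, Adj.mk' hx hz (hp 0) hx0 (not_smul_of_dual hx' (hp 2) hz0),
    (Adj.mk' hy hz (hp 1) hy0 (not_smul_of_dual hy' (hp 3) hz0)).symm⟩

/-- A common neighbour of a nonzero singular vector and both ends of an edge. -/
theorem exists_common_edge {x v w : V} (hx : Q x = 0) (hx0 : x ≠ 0) (hvw : Adj Q v w) :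
    ∃ z, Adj Q x z ∧ Adj Q v z ∧ Adj Q w z := by
  have hd : 4 + 3 ≤ finrank F V := hA.dim
  obtain ⟨v', hv'⟩ := exists_dual hA.bn hvw.ne_zero.1
  obtain ⟨w', hw'⟩ := exists_dual hA.bn hvw.ne_zero.2
  obtain ⟨hvne, hwne⟩ := hvw.ne_zero
  by_cases hxv : polar Q x v = 0
  swap
  · obtain ⟨z, hz0, hz, hp⟩ := exists_perp_sing hA.bn ![x, v, w, w'] hd
    exact ⟨z, Adj.mk' hx hz (hp 0) hx0 (not_smul_of_polar (w := v) (by rwa [polar_comm]) (hp 1) hz0),
      Adj.mk' hvw.left hz (hp 1) hvne (not_smul_of_polar hxv (hp 0) hz0),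
      Adj.mk' hvw.right hz (hp 2) hwne (not_smul_of_dual hw' (hp 3) hz0)⟩
  by_cases hxw : polar Q x w = 0
  swap
  · obtain ⟨z, hz0, hz, hp⟩ := exists_perp_sing hA.bn ![x, v, w, v'] hd
    exact ⟨z, Adj.mk' hx hz (hp 0) hx0 (not_smul_of_polar (w := w) (by rwa [polar_comm]) (hp 2) hz0),
      Adj.mk' hvw.left hz (hp 1) hvne (not_smul_of_dual hv' (hp 3) hz0),
      Adj.mk' hvw.right hz (hp 2) hwne (not_smul_of_polar hxw (hp 0) hz0)⟩
  by_cases hspan : ∃ a b : F, x = a • v + b • w
  · obtain ⟨a, b, rfl⟩ := hspan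
    obtain ⟨v₁, hv₁⟩ := exists_values hA.bn hvw.indep ![1, 0]
    obtain ⟨w₁, hw₁⟩ := exists_values hA.bn hvw.indep ![0, 1]
    have a1 : polar Q v v₁ = 1 := hv₁ 0
    have a2 : polar Q w v₁ = 0 := hv₁ 1
    have b1 : polar Q v w₁ = 0 := hw₁ 0
    have b2 : polar Q w w₁ = 1 := hw₁ 1
    obtain ⟨z, hz0, hz, hp⟩ := exists_perp_sing hA.bn ![v, w, v₁, w₁] hd
    refine ⟨z, Adj.mk' hx hz ?_ hx0 ?_,
      Adj.mk' hvw.left hz (hp 0) hvne (not_smul_of_dual a1 (hp 2) hz0),
      Adj.mk' hvw.right hz (hp 1) hwne (not_smul_of_dual b2 (hp 3) hz0)⟩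
    · rw [polar_add_left, polar_smul_left, polar_smul_left]
      have h0 : polar Q v z = 0 := hp 0
      have h1 : polar Q w z = 0 := hp 1
      rw [h0, h1, smul_zero, smul_zero, add_zero]
    · intro c e
      have hv'' : polar Q z v₁ = 0 := (polar_comm Q z v₁).trans (hp 2)
      have hw'' : polar Q z w₁ = 0 := (polar_comm Q z w₁).trans (hp 3)
      rw [e] at hv'' hw''
      simp only [polar_smul_left, polar_add_left, smul_eq_mul, a1, a2, b1, b2, mul_one, mul_zero,
        add_zero, zero_add] at hv'' hw''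
      exact hz0 (by rw [e, smul_add, smul_smul, smul_smul, hv'', hw'', zero_smul, zero_smul, add_zero])
  · simp only [not_exists] at hspan
    have hz : Q (x + v + w) = 0 := sing_add (sing_add hx hvw.left hxv) hvw.right
      (by rw [polar_add_left, hxw, hvw.orth, add_zero])
    refine ⟨x + v + w, Adj.mk' hx hz ?_ hx0 ?_, Adj.mk' hvw.left hz ?_ hvne ?_,
      Adj.mk' hvw.right hz ?_ hwne ?_⟩
    · rw [polar_add_right, polar_add_right, hxv, hxw, polar_self_of_sing hx]; simp
    · intro c e
      rcases eq_or_ne c 1 with rfl | hc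
      · have := LinearIndependent.pair_iff.1 hvw.indep 1 1 (by
          linear_combination (norm := module) e)
        exact one_ne_zero this.1
      · refine hspan (c - 1)⁻¹ (c - 1)⁻¹ ?_
        rw [← smul_add, eq_inv_smul_iff₀ (sub_ne_zero.2 hc)]
        linear_combination (norm := module) e.symm
    · rw [polar_add_right, polar_add_right, polar_comm Q v x, hxv, polar_self_of_sing hvw.left, hvw.orth]
      simp
    · intro c e
      exact hspan (c - 1) (-1) (by linear_combination (norm := module) e)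
    · rw [polar_add_right, polar_add_right, polar_comm Q w x, hxw, polar_comm Q w v, hvw.orth,
        polar_self_of_sing hvw.right]
      simp
    · intro c e
      exact hspan (-1) (c - 1) (by linear_combination (norm := module) e)

end Cfsg.Agent.CentralExt.OrthMult
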