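import Cfsg.Agent.CentralExt.OrthMult.Gen
import Cfsg.Agent.CentralExt.Basic

/-!
The spin cover: the Eichler group of a quadratic space with three orthogonal hyperbolic pairs has
a stem extension with nontrivial kernel.
-/

set_option autoImplicit false
set_option linter.unusedSectionVars false
set_option linter.style.haveILetI false

namespace Cfsg.Agent.CentralExt.OrthMult

open QuadraticMap Module Cfsg.Agent.Classical Cfsg.Agent.OrthGen
open scoped commutatorElement

universe u v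

variable {F : Type u} [Field F] {V : Type v} [AddCommGroup V] [Module F V]
  {Q : QuadraticForm F V}

/-- An anisotropic vector as a unit of the Clifford algebra. -/
def vUnit (Q : QuadraticForm F V) {x : V} (hx : Q x ≠ 0) : (CliffordAlgebra Q)ˣ :=
  ⟨CliffordAlgebra.ι Q x, (Q x)⁻¹ • CliffordAlgebra.ι Q x,
    by rw [mul_smul_comm, CliffordAlgebra.ι_sq_scalar, Algebra.algebraMap_eq_smul_one,
      smul_smul, inv_mul_cancel₀ hx, one_smul],
    by rw [smul_mul_assoc, CliffordAlgebra.ι_sq_scalar, Algebra.algebraMap_eq_smul_one,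
      smul_smul, inv_mul_cancel₀ hx, one_smul]⟩

theorem vUnit_swap (Q : QuadraticForm F V) {x : V} (hx : Q x ≠ 0) (v : V) :
    CliffordAlgebra.ι Q x * CliffordAlgebra.ι Q v =
      -(CliffordAlgebra.ι Q ((reflQ Q x hx : V ≃ₗ[F] V) v) * CliffordAlgebra.ι Q x) := by
  rw [reflQ_apply, map_sub, map_smul, sub_mul, smul_mul_assoc, CliffordAlgebra.ι_sq_scalar,
    CliffordAlgebra.ι_mul_ι_comm, Algebra.algebraMap_eq_smul_one, Algebra.algebraMap_eq_smul_one, smul_smul,
    show (Q x)⁻¹ * polar Q x v * Q x = polar Q x v by field_simp]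
  abel

/-- A product of two anisotropic vectors with the isometry it induces. -/
noncomputable def spinPair (Q : QuadraticForm F V) {a b : V} (ha : Q a ≠ 0) (hb : Q b ≠ 0) :
    (CliffordAlgebra Q)ˣ × OQ Q :=
  (vUnit Q ha * vUnit Q hb, reflQ Q a ha * reflQ Q b hb)

/-- Products of evenly many anisotropic vectors. -/
noncomputable def spinPairs (Q : QuadraticForm F V) : Subgroup ((CliffordAlgebra Q)ˣ × OQ Q) :=
  Subgroup.closure {p | ∃ (a b : V) (ha : Q a ≠ 0) (hb : Q b ≠ 0), p = spinPair Q ha hb}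

theorem spinPairs_induces {p : (CliffordAlgebra Q)ˣ × OQ Q} (hp : p ∈ spinPairs Q) (v : V) :
    (p.1 : CliffordAlgebra Q) * CliffordAlgebra.ι Q v =
      CliffordAlgebra.ι Q ((p.2 : V ≃ₗ[F] V) v) * p.1 := by
  induction hp using Subgroup.closure_induction generalizing v with
  | mem p hp =>
    obtain ⟨a, b, ha, hb, rfl⟩ := hp
    show CliffordAlgebra.ι Q a * CliffordAlgebra.ι Q b * CliffordAlgebra.ι Q v =
      CliffordAlgebra.ι Q ((reflQ Q a ha : V ≃ₗ[F] V) ((reflQ Q b hb : V ≃ₗ[F] V) v)) *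
        (CliffordAlgebra.ι Q a * CliffordAlgebra.ι Q b)
    rw [mul_assoc, vUnit_swap Q hb v, mul_neg, ← mul_assoc, vUnit_swap Q ha, neg_mul, neg_neg,
      mul_assoc]
  | one => simp
  | mul x y _ _ hx hy =>
    show (x.1 : CliffordAlgebra Q) * y.1 * CliffordAlgebra.ι Q v =
      CliffordAlgebra.ι Q ((x.2 : V ≃ₗ[F] V) ((y.2 : V ≃ₗ[F] V) v)) * (x.1 * y.1)
    rw [mul_assoc, hy, ← mul_assoc, hx, mul_assoc]
  | inv x _ hx =>
    have e := hx (((x.2)⁻¹ : OQ Q).1 v)
    rw [show (x.2 : V ≃ₗ[F] V) (((x.2)⁻¹ : OQ Q).1 v) = v from LinearEquiv.apply_symm_apply _ _] at e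
    show ((x.1⁻¹ : (CliffordAlgebra Q)ˣ) : CliffordAlgebra Q) * CliffordAlgebra.ι Q v =
      CliffordAlgebra.ι Q (((x.2)⁻¹ : OQ Q).1 v) * ((x.1⁻¹ : (CliffordAlgebra Q)ˣ) : CliffordAlgebra Q)
    rw [Units.inv_mul_eq_iff_eq_mul, ← mul_assoc, e, mul_assoc, Units.mul_inv, mul_one]

/-- The pairs over the identity are central. -/
theorem spinPairs_central {p : (CliffordAlgebra Q)ˣ × OQ Q} (hp : p ∈ spinPairs Q) (h1 : p.2 = 1)
    (q : (CliffordAlgebra Q)ˣ × OQ Q) : q * p = p * q := by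
  refine Prod.ext (Units.ext ?_) (by simp [h1])
  show (q.1 : CliffordAlgebra Q) * p.1 = p.1 * q.1
  generalize (q.1 : CliffordAlgebra Q) = c
  induction c using CliffordAlgebra.induction with
  | algebraMap r => exact Algebra.commutes r _
  | ι x => rw [spinPairs_induces hp x, h1]; simp
  | mul a b ha hb => rw [mul_assoc, hb, ← mul_assoc, ha, mul_assoc]
  | add a b ha hb => rw [add_mul, mul_add, ha, hb]

variable [FiniteDimensional F V] [Finite F]

theorem EQ_le_map_spinPairs (hB : BNondeg Q) (h2 : (2 : F) ≠ 0) (hn : 5 ≤ finrank F V) :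
    EQ Q ≤ (spinPairs Q).map (MonoidHom.snd _ _) := by
  have hR := OrthGen.RQ_eq_top hB (notExceptional_of_two_ne_zero (Q := Q) h2)
  set M := (spinPairs Q).map (MonoidHom.snd _ _)
  rw [EQ_eq_commutator hB h2 hn, commutator_def, Subgroup.commutator_le]
  obtain ⟨a₀, ha₀⟩ := exists_value hB h2 (by omega) 1
  have h0 : Q a₀ ≠ 0 := by rw [ha₀]; exact one_ne_zero
  have pair : ∀ {a b : V} (ha : Q a ≠ 0) (hb : Q b ≠ 0), reflQ Q a ha * reflQ Q b hb ∈ M :=
    fun {a b} ha hb => ⟨spinPair Q ha hb, Subgroup.subset_closure ⟨a, b, ha, hb, rfl⟩, rfl⟩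
  set r := reflQ Q a₀ h0
  have hrr : r * r = 1 := reflQ_mul_self Q a₀ h0
  have rflip : ∀ m ∈ M, r * m * r ∈ M := by
    rintro _ ⟨p, hp, rfl⟩
    induction hp using Subgroup.closure_induction with
    | mem p hp =>
      obtain ⟨a, b, ha, hb, rfl⟩ := hp
      show r * (reflQ Q a ha * reflQ Q b hb) * r ∈ M
      rw [show r * (reflQ Q a ha * reflQ Q b hb) * r =
        r * reflQ Q a ha * (reflQ Q b hb * r) by group]
      exact mul_mem (pair h0 ha) (pair hb h0)
    | one => rw [map_one, mul_one, hrr]; exact one_mem _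
    | mul x y _ _ hx hy =>
      rw [map_mul]
      show r * (x.2 * y.2) * r ∈ M
      rw [show r * (x.2 * y.2) * r = r * x.2 * (r * r) * y.2 * r by rw [hrr]; group,
        show r * x.2 * (r * r) * y.2 * r = r * x.2 * r * (r * y.2 * r) by group]
      exact mul_mem hx hy
    | inv x _ hx =>
      have e : r⁻¹ = r := inv_eq_of_mul_eq_one_right hrr
      rw [map_inv]
      show r * (x.2)⁻¹ * r ∈ M
      rw [show r * (x.2)⁻¹ * r = (r⁻¹ * x.2 * r⁻¹)⁻¹ by group, e]
      exact inv_mem hx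
  have cases' : ∀ g : OQ Q, g ∈ M ∨ g * r ∈ M := by
    intro g
    have hg : g ∈ RQ Q := hR ▸ Subgroup.mem_top g
    induction hg using Subgroup.closure_induction with
    | mem g hg => obtain ⟨a, ha, rfl⟩ := hg; exact Or.inr (pair ha h0)
    | one => exact Or.inl (one_mem _)
    | mul x y _ _ hx hy =>
      rcases hx with hx | hx <;> rcases hy with hy | hy
      · exact Or.inl (mul_mem hx hy)
      · exact Or.inr (by rw [mul_assoc]; exact mul_mem hx hy)
      · refine Or.inr ?_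
        have := mul_mem hx (rflip y hy)
        rwa [show x * r * (r * y * r) = x * (r * r) * y * r by group, hrr, mul_one] at this
      · refine Or.inl ?_
        have := mul_mem hx (rflip _ hy)
        rwa [show x * r * (r * (y * r) * r) = x * (r * r) * y * (r * r) by group, hrr, mul_one,
          mul_one] at this
    | inv x _ hx =>
      rcases hx with hx | hx
      · exact Or.inl (inv_mem hx)
      · refine Or.inr ?_
        have := rflip _ (inv_mem hx)
        rwa [mul_inv_rev, show r * (r⁻¹ * x⁻¹) * r = x⁻¹ * r by group] at this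
  intro g _ k _
  have key : ∀ g k : OQ Q, g ∈ M → k ∈ M → ⁅g, k⁆ ∈ M := fun g k hg hk =>
    mul_mem (mul_mem (mul_mem hg hk) (inv_mem hg)) (inv_mem hk)
  have e : r⁻¹ = r := inv_eq_of_mul_eq_one_right hrr
  -- a commutator of reflection multiples is even
  have half : ∀ g : OQ Q, ∀ m ∈ M, g * m * g⁻¹ ∈ M := by
    intro g m hm
    rcases cases' g with hg | hg
    · exact mul_mem (mul_mem hg hm) (inv_mem hg)
    · have := mul_mem (mul_mem hg (rflip m hm)) (inv_mem hg)
      rwa [show g * r * (r * m * r) * (g * r)⁻¹ = g * (r * r) * m * (r * r⁻¹) * g⁻¹ by group, hrr,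
        mul_inv_cancel, mul_one, mul_one] at this
  rcases cases' g with hg | hg
  · have := mul_mem hg (half k g⁻¹ (inv_mem hg))
    rwa [show g * (k * g⁻¹ * k⁻¹) = ⁅g, k⁆ by simp only [commutatorElement_def]; group] at this
  · rcases cases' k with hk | hk
    · have := mul_mem (half g k hk) (inv_mem hk)
      rwa [show g * k * g⁻¹ * k⁻¹ = ⁅g, k⁆ from rfl] at this
    · -- both odd
      have h1 := mul_mem (mul_mem hg (rflip _ hk)) (rflip _ (inv_mem hg))
      have h2 := mul_mem h1 (inv_mem hk)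
      rwa [show g * r * (r * (k * r) * r) * (r * (g * r)⁻¹ * r) * (k * r)⁻¹ =
        g * (r * r) * k * (r * r) * (r * r⁻¹) * g⁻¹ * (r * r⁻¹) * k⁻¹ by group, hrr, mul_inv_cancel,
        mul_one, mul_one, mul_one, mul_one, ← commutatorElement_def] at h2

/-- The spin cover. -/
theorem exists_spin_cover (hB : BNondeg Q) (h2 : (2 : F) ≠ 0) (hn : 7 ≤ finrank F V)
    (hperf : ⁅EQ Q, EQ Q⁆ = EQ Q) :
    ∃ (E : Subgroup ((CliffordAlgebra Q)ˣ × OQ Q)) (θ : E →* EQ Q),
      IsStemExtension θ ∧ θ.ker ≠ ⊥ := by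
  letI : Invertible (2 : F) := invertibleOfNonzero h2
  have hn5 : 5 ≤ finrank F V := by omega
  set H := spinPairs Q ⊓ (EQ Q).comap (MonoidHom.snd _ _)
  set π : (CliffordAlgebra Q)ˣ × OQ Q →* OQ Q := MonoidHom.snd _ _
  have hHmap : H.map π = EQ Q := by
    refine le_antisymm (by rintro _ ⟨p, hp, rfl⟩; exact hp.2) fun g hg => ?_
    obtain ⟨p, hp, rfl⟩ := EQ_le_map_spinPairs hB h2 hn5 hg
    exact ⟨p, ⟨hp, hg⟩, rfl⟩
  set E := ⁅H, H⁆ with hEdef
  have hEH : E ≤ H := Subgroup.commutator_le_self _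
  have hEmap : E.map π = EQ Q := by rw [hEdef, Subgroup.map_commutator, hHmap, hperf]
  have hcen : ∀ {p}, p ∈ H → π p = 1 → ∀ q, q * p = p * q := fun hp h1 q =>
    spinPairs_central hp.1 h1 q
  -- `E` is perfect
  have hperfE : ⁅E, E⁆ = E := by
    refine le_antisymm (Subgroup.commutator_le_self _) ?_
    have hm : (⁅E, E⁆ : Subgroup _).map π = EQ Q := by rw [Subgroup.map_commutator, hEmap, hperf]
    conv_lhs => rw [hEdef]
    rw [Subgroup.commutator_le]
    intro a ha b hb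
    obtain ⟨a', ha', ea⟩ : ∃ a' ∈ ⁅E, E⁆, π a' = π a := by
      rw [← Subgroup.mem_map, hm, ← hHmap]; exact Subgroup.mem_map_of_mem _ ha
    obtain ⟨b', hb', eb⟩ : ∃ b' ∈ ⁅E, E⁆, π b' = π b := by
      rw [← Subgroup.mem_map, hm, ← hHmap]; exact Subgroup.mem_map_of_mem _ hb
    have hle : ⁅E, E⁆ ≤ H := (Subgroup.commutator_le_self _).trans hEH
    have ca := hcen (mul_mem (inv_mem (hle ha')) ha) (by rw [map_mul, map_inv, ea, inv_mul_cancel])
    have cb := hcen (mul_mem (inv_mem (hle hb')) hb) (by rw [map_mul, map_inv, eb, inv_mul_cancel])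
    obtain ⟨z, hz, rfl⟩ : ∃ z, (∀ q, q * z = z * q) ∧ a = a' * z := ⟨_, ca, by group⟩
    obtain ⟨y, hy, rfl⟩ : ∃ y, (∀ q, q * y = y * q) ∧ b = b' * y := ⟨_, cb, by group⟩
    have e : ⁅a' * z, b' * y⁆ = ⁅a', b'⁆ := by
      simp only [commutatorElement_def, mul_inv_rev]
      calc a' * z * (b' * y) * (z⁻¹ * a'⁻¹) * (y⁻¹ * b'⁻¹)
          = a' * (z * (b' * y)) * z⁻¹ * a'⁻¹ * y⁻¹ * b'⁻¹ := by group
        _ = a' * b' * (y * a'⁻¹) * y⁻¹ * b'⁻¹ := by rw [← hz (b' * y)]; group
        _ = a' * b' * a'⁻¹ * b'⁻¹ := by rw [← hy a'⁻¹]; group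
    rw [e]
    exact mul_mem (mul_mem (mul_mem ha' hb') (inv_mem ha')) (inv_mem hb')
  let θ : E →* EQ Q := (π.comp E.subtype).codRestrict (EQ Q) fun x => (hEH x.2).2
  have hker : ∀ x : E, θ x = 1 ↔ π x.1 = 1 := fun x => Subtype.ext_iff
  refine ⟨E, θ, ⟨?_, ?_, ?_⟩, ?_⟩
  · rintro ⟨g, hg⟩
    rw [← hEmap] at hg
    obtain ⟨p, hp, rfl⟩ := hg
    exact ⟨⟨p, hp⟩, rfl⟩
  · intro x hx
    rw [Subgroup.mem_center_iff]
    exact fun y => Subtype.ext (hcen (hEH x.2) ((hker x).1 hx) y.1)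
  · intro x _
    have h := x.2
    conv at h => arg 1; rw [← hperfE]
    rw [show (⁅E, E⁆ : Subgroup _) = (commutator E).map E.subtype by
      rw [commutator_def, Subgroup.map_commutator, ← MonoidHom.range_eq_map, Subgroup.range_subtype]] at h
    obtain ⟨y, hy, e⟩ := h
    rwa [← Subtype.ext e]
  -- the element `-1`
  obtain ⟨p, r, s, -, hp, hr, hs, hpr, hps, hrs, -⟩ := exists_frame hB hn
  have hval : ∀ {p : V × V}, IsPair Q p.1 p.2 → Q (p.1 + p.2) = 1 := fun {p} hp => by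
    rw [qf_add, hp.1, hp.2.1, hp.2.2]; simp
  have hne : ∀ {p : V × V}, IsPair Q p.1 p.2 → Q (p.1 + p.2) ≠ 0 := fun {p} hp => by
    rw [hval hp]; exact one_ne_zero
  have horth : ∀ {p r : V × V}, PPerp Q p r → polar Q (p.1 + p.2) (r.1 + r.2) = 0 := fun {p r} h => by
    simp [polar_add_left, polar_add_right, h.1, h.2.1, h.2.2.1, h.2.2.2]
  have h2p := hasTwoPairs_of_five_le hB hn5
  set a := p.1 + p.2
  set b := r.1 + r.2
  set c := s.1 + s.2
  have hx : spinPair Q (hne hp) (hne hr) ∈ H :=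
    ⟨Subgroup.subset_closure ⟨_, _, _, _, rfl⟩,
      reflQ_mul_mem_EQ hB h2p (hne hp) (hne hr) ((hval hp).trans (hval hr).symm)⟩
  have hy : spinPair Q (hne hr) (hne hs) ∈ H :=
    ⟨Subgroup.subset_closure ⟨_, _, _, _, rfl⟩,
      reflQ_mul_mem_EQ hB h2p (hne hr) (hne hs) ((hval hr).trans (hval hs).symm)⟩
  intro hbot
  set x := spinPair Q (hne hp) (hne hr)
  set y := spinPair Q (hne hr) (hne hs)
  have hmem : ⁅x, y⁆ ∈ E := Subgroup.commutator_mem_commutator hx hy
  -- the isometries commute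
  have hcomm : Commute (reflQ Q a (hne hp) * reflQ Q b (hne hr))
      (reflQ Q b (hne hr) * reflQ Q c (hne hs)) := by
    have cm : ∀ {a b : V} (ha : Q a ≠ 0) (hb : Q b ≠ 0), polar Q a b = 0 →
        Commute (reflQ Q a ha) (reflQ Q b hb) := fun {a b} ha hb h => by
      have hgx : Q ((reflQ Q a ha : V ≃ₗ[F] V) b) ≠ 0 := by rwa [OQ_map_app]
      have e := reflQ_conj Q (reflQ Q a ha) b hb hgx
      rw [reflQ_congr Q (reflQ_fix Q ha h) hgx hb, mul_inv_eq_iff_eq_mul] at e
      exact e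
    exact (((cm _ _ (horth hpr)).mul_right (cm _ _ (horth hps)))).mul_left
      ((Commute.refl _).mul_right (cm _ _ (horth hrs)))
  have hsnd : π ⁅x, y⁆ = 1 := by
    rw [map_commutatorElement, commutatorElement_eq_one_iff_commute]
    exact hcomm
  have hθ : θ ⟨_, hmem⟩ = 1 := (hker _).2 hsnd
  rw [← MonoidHom.mem_ker, hbot, Subgroup.mem_bot] at hθ
  have hfst : ⁅x.1, y.1⁆ = 1 := congrArg (fun z : E => z.1.1) hθ
  rw [commutatorElement_eq_one_iff_mul_comm] at hfst
  have e1 := congrArg Units.val hfst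
  -- in the algebra the two products anticommute
  set A := CliffordAlgebra.ι Q a
  set B := CliffordAlgebra.ι Q b
  set C := CliffordAlgebra.ι Q c
  have anti : ∀ {a b : V}, polar Q a b = 0 →
      CliffordAlgebra.ι Q b * CliffordAlgebra.ι Q a = -(CliffordAlgebra.ι Q a * CliffordAlgebra.ι Q b) := by
    intro a b h
    rw [CliffordAlgebra.ι_mul_ι_comm b a, polar_comm, h, map_zero, zero_sub]
  have hBB : B * B = 1 := by rw [CliffordAlgebra.ι_sq_scalar, hval hr, map_one]
  have e2 : A * B * (B * C) = B * C * (A * B) := e1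
  have hCA : C * A = -(A * C) := anti (horth hps)
  have hBA : B * A = -(A * B) := anti (horth hpr)
  have hCB : C * B = -(B * C) := anti (horth hrs)
  have e3 : B * C * (A * B) = -(A * B * (B * C)) :=
    calc B * C * (A * B) = B * (C * A) * B := by simp only [mul_assoc]
      _ = -(B * A * (C * B)) := by rw [hCA]; simp only [mul_neg, neg_mul, mul_assoc]
      _ = -(A * B * (B * C)) := by
        rw [hBA, hCB]
        simp only [mul_neg, neg_mul, neg_neg]
  rw [← e2] at e3
  have h2C : (2 : F) • (A * B * (B * C)) = 0 := by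
    rw [two_smul]
    exact eq_neg_iff_add_eq_zero.1 e3
  rw [smul_eq_zero] at h2C
  have hu : IsUnit (A * B * (B * C)) :=
    ((vUnit Q (hne hp)).isUnit.mul (vUnit Q (hne hr)).isUnit).mul
      ((vUnit Q (hne hr)).isUnit.mul (vUnit Q (hne hs)).isUnit)
  exact hu.ne_zero (h2C.resolve_left h2)

end Cfsg.Agent.CentralExt.OrthMult
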