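import Cfsg.Agent.CentralExt.OrthMult.Extend
import Cfsg.Agent.CentralExt.OrthMult.Gen

/-!
Over the field of three elements a system of Siegel lifts exists from dimension nine on:
commutators with lifts of commuting involutions give the invariant complement.
-/

set_option autoImplicit false
set_option linter.unusedSectionVars false
set_option maxHeartbeats 1600000

namespace Cfsg.Agent.CentralExt.OrthMult

open QuadraticMap Module Cfsg.Agent.Classical Cfsg.Agent.OrthGen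
open scoped commutatorElement

universe u v w

variable {F : Type u} [Field F] {W : Type v} [AddCommGroup W] [Module F W]
  {Q : QuadraticForm F W}

theorem refl_conj_pm {V : Type*} [AddCommGroup V] [Module F V] (R : QuadraticForm F V) (g : OQ R)
    {x : V} (hx : R x ≠ 0) (h : (g : V ≃ₗ[F] V) x = x ∨ (g : V ≃ₗ[F] V) x = -x) :
    g * reflQ R x hx * g⁻¹ = reflQ R x hx := by
  have hgx : R ((g : V ≃ₗ[F] V) x) ≠ 0 := by rwa [OQ_map_app]
  rw [reflQ_conj R g x hx hgx]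
  rcases h with h | h
  · exact reflQ_congr R h hgx hx
  · rw [reflQ_congr R h hgx (by rwa [QuadraticMap.map_neg])]
    exact reflQ_neg R hx (by rwa [QuadraticMap.map_neg])

/-- Nonsingularity of the four vectors of a pair. -/
theorem aP_ne {p : W × W} (hp : IsPair Q p.1 p.2) :
    hypAdd Q (hE F W + hF F W) ≠ 0 ∧ hypAdd Q (hE F W - hF F W) ≠ 0 ∧
      hypAdd Q (inW F (p.1 + p.2)) ≠ 0 ∧ hypAdd Q (inW F (p.1 - p.2)) ≠ 0 := by
  refine ⟨?_, ?_, ?_, ?_⟩ <;> simp [inW, qf_add, qf_sub, hp.1, hp.2.1, hp.2.2]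

/-- The involution negating the distinguished plane and the plane of a pair. -/
noncomputable def aP {p : W × W} (hp : IsPair Q p.1 p.2) : OQ (hypAdd Q) :=
  reflQ _ _ (aP_ne hp).1 * reflQ _ _ (aP_ne hp).2.2.1 *
    (reflQ _ _ (aP_ne hp).2.1 * reflQ _ _ (aP_ne hp).2.2.2)

theorem aP_apply {p : W × W} (hp : IsPair Q p.1 p.2) :
    (aP hp).1 (hE F W) = -hE F W ∧ (aP hp).1 (hF F W) = -hF F W ∧
      ∀ a, polar Q p.1 a = 0 → polar Q p.2 a = 0 → (aP hp).1 (inW F a) = inW F a := by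
  refine ⟨?_, ?_, fun a h1 h2 => ?_⟩
  · simp only [aP, Subgroup.coe_mul, LinearEquiv.mul_apply, reflQ_apply]
    simp [inW, qf_add, qf_sub, hp.1, hp.2.1, hp.2.2]
  · simp only [aP, Subgroup.coe_mul, LinearEquiv.mul_apply, reflQ_apply]
    simp [inW, qf_add, qf_sub, hp.1, hp.2.1, hp.2.2]
  · simp only [aP, Subgroup.coe_mul, LinearEquiv.mul_apply]
    have p1 : polar (hypAdd Q) (inW F (p.1 + p.2)) (inW F a) = 0 := by
      simp [inW, polar_add_left, h1, h2]
    have p2 : polar (hypAdd Q) (inW F (p.1 - p.2)) (inW F a) = 0 := by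
      simp [inW, polar_sub_left, h1, h2]
    rw [reflQ_fix (hypAdd Q) (aP_ne hp).2.2.2 p2, reflQ_fix (hypAdd Q) (aP_ne hp).2.1 (by simp [inW]),
      reflQ_fix (hypAdd Q) (aP_ne hp).2.2.1 p1, reflQ_fix (hypAdd Q) (aP_ne hp).1 (by simp [inW])]

theorem aP_conj {p : W × W} (hp : IsPair Q p.1 p.2) (g : OQ (hypAdd Q))
    (huf : g.1 (hE F W) = hE F W ∧ g.1 (hF F W) = hF F W ∨
      g.1 (hE F W) = -hE F W ∧ g.1 (hF F W) = -hF F W)
    (h1 : g.1 (inW F p.1) = inW F p.1) (h2 : g.1 (inW F p.2) = inW F p.2) :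
    g * aP hp * g⁻¹ = aP hp := by
  have e1 := refl_conj_pm _ g (aP_ne hp).1 (by
    rcases huf with ⟨a, b⟩ | ⟨a, b⟩
    · exact Or.inl (by rw [map_add, a, b])
    · exact Or.inr (by rw [map_add, a, b]; abel))
  have e2 := refl_conj_pm _ g (aP_ne hp).2.1 (by
    rcases huf with ⟨a, b⟩ | ⟨a, b⟩
    · exact Or.inl (by rw [map_sub, a, b])
    · exact Or.inr (by rw [map_sub, a, b]; abel))
  have e3 := refl_conj_pm _ g (aP_ne hp).2.2.1 (Or.inl (by rw [map_add, map_add, h1, h2]))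
  have e4 := refl_conj_pm _ g (aP_ne hp).2.2.2 (Or.inl (by rw [map_sub, map_sub, h1, h2]))
  conv_rhs => rw [aP, ← e1, ← e2, ← e3, ← e4]
  rw [aP]
  group

variable [FiniteDimensional F W] [Finite F] {E : Type w} [Group E]

theorem aP_mem (hA : Amb (hypAdd Q)) {p : W × W} (hp : IsPair Q p.1 p.2) :
    aP hp ∈ EQ (hypAdd Q) := by
  have h2p := hasTwoPairs_of_five_le hA.bn (by have := hA.dim; omega)
  refine mul_mem (reflQ_mul_mem_EQ hA.bn h2p _ _ ?_) (reflQ_mul_mem_EQ hA.bn h2p _ _ ?_) <;>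
    simp [inW, qf_add, qf_sub, hp.1, hp.2.1, hp.2.2]

/-- Over three elements there is a system of Siegel lifts from dimension nine on. -/
theorem exists_sys_ternary {τ : E →* OQ (hypAdd Q)} (hB : BNondeg Q) (hq : Nat.card F = 3)
    (hn : 7 ≤ finrank F W) (hgen : ∀ e, τ e ∈ EQ (hypAdd Q)) (hc : τ.ker ≤ Subgroup.center E)
    (hsurj : ∀ g ∈ EQ (hypAdd Q), ∃ e, τ e = g) : Nonempty (Sys (hypAdd Q) τ) := by
  classical
  have : Fintype F := Fintype.ofFinite F
  have h3 : (3 : F) = 0 := by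
    have := FiniteField.cast_card_eq_zero F
    rw [← Nat.card_eq_fintype_card, hq] at this
    exact_mod_cast this
  have h2 : (2 : F) ≠ 0 := fun e => one_ne_zero (α := F) (by linear_combination h3 - e)
  have hA : Amb (hypAdd Q) := amb_hypAdd hB h2 (by omega)
  have hu : (hypAdd Q) (hE F W) = 0 := (isPair_hypAdd Q).1
  have hu0 : hE F W ≠ 0 := (isPair_hypAdd Q).ne_zero
  have hpi : ∀ a : W, polar (hypAdd Q) (hE F W) (inW F a) = 0 := fun a => by simp [inW]
  choose! L hL using fun a : W => hsurj _ (siegel_mem_EQ (hypAdd Q) hu (hpi a))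
  have hex : ∀ p : W × W, ∃ m : E, ∀ hp : IsPair Q p.1 p.2, τ m = aP hp := fun p => by
    by_cases hp : IsPair Q p.1 p.2
    · obtain ⟨m, hm⟩ := hsurj _ (aP_mem hA hp)
      exact ⟨m, fun _ => hm⟩
    · exact ⟨1, fun h => absurd h hp⟩
  choose M hM using hex
  let φ : W × W → W → E := fun p a => ⁅M p, L a⁆
  let Pp : W × W → W → Prop := fun p a => polar Q p.1 a = 0 ∧ polar Q p.2 a = 0
  have hPadd : ∀ {p a b}, Pp p a → Pp p b → Pp p (a + b) := fun {p a b} x y =>
    ⟨by rw [polar_add_right, x.1, y.1, add_zero], by rw [polar_add_right, x.2, y.2, add_zero]⟩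
  have hPneg : ∀ {p a}, Pp p a → Pp p (-a) := fun {p a} x =>
    ⟨by rw [polar_neg_right, x.1, neg_zero], by rw [polar_neg_right, x.2, neg_zero]⟩
  have hcm : ∀ {a b : (F × F) × W} (ha : polar (hypAdd Q) (hE F W) a = 0) (hb : polar (hypAdd Q) (hE F W) b = 0) {x y : E},
      τ x = siegel (hypAdd Q) hu ha → τ y = siegel (hypAdd Q) hu hb → Commute x y := fun {a b} ha hb {x y} hx hy =>
    commute_lifts hA hc hsurj hu hu0 ha hb hx hy
  have hcen : ∀ {z : E}, τ z = 1 → ∀ g, g * z = z * g := fun hz g =>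
    Subgroup.mem_center_iff.1 (hc (MonoidHom.mem_ker.2 hz)) g
  -- the lifts
  have hlift : ∀ {p : W × W}, IsPair Q p.1 p.2 → ∀ {a}, Pp p a →
      τ (φ p a) = siegel (hypAdd Q) hu (hpi a) := by
    intro p hp a ha
    obtain ⟨au, -, ai⟩ := aP_apply hp
    rw [map_commutatorElement, hM p hp, hL, commutatorElement_def, siegel_conj, siegel_inv]
    have e1 : polar (hypAdd Q) ((-1 : F) • hE F W) (inW F a) = 0 := by
      rw [polar_smul_left, hpi, smul_zero]
    have e2 : polar (hypAdd Q) (hE F W) ((-1 : F) • inW F a) = 0 := by rw [← map_smul]; exact hpi _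
    rw [siegel_congr (hypAdd Q) _ _ (sing_smul _ hu) e1 (au.trans (neg_one_smul F _).symm) (ai a ha.1 ha.2),
      siegel_smul_left (hypAdd Q) (-1) hu (hpi a) (sing_smul _ hu) e2 e1, siegel_mul]
    refine siegel_congr (hypAdd Q) _ _ _ _ rfl ?_
    match_scalars
    linear_combination -h3
  have hadd : ∀ {p : W × W}, IsPair Q p.1 p.2 → ∀ {a b}, Pp p a → Pp p b →
      φ p (a + b) = φ p a * φ p b := by
    intro p hp a b ha hb
    show ⁅M p, L (a + b)⁆ = ⁅M p, L a⁆ * ⁅M p, L b⁆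
    rw [comm_eq hc (rfl : τ (M p) = τ (M p)) (show τ (L (a + b)) = τ (L a * L b) by
      rw [map_mul, hL, hL, hL, siegel_mul]; exact siegel_congr _ _ _ _ _ rfl (map_add _ _ _))]
    rw [show ⁅M p, L a * L b⁆ = ⁅M p, L a⁆ * (L a * ⁅M p, L b⁆ * (L a)⁻¹) by
      simp only [commutatorElement_def]; group]
    have e := (hcm (hpi a) (hpi b) (hL a) (hlift hp hb)).eq
    rw [e, mul_inv_cancel_right]
  have hzero : ∀ {p : W × W}, IsPair Q p.1 p.2 → φ p 0 = 1 := fun {p} hp => by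
    have e := hadd hp (a := 0) (b := 0) ⟨by simp, by simp⟩ ⟨by simp, by simp⟩
    rw [add_zero] at e
    exact mul_eq_left.1 e.symm
  have hneg : ∀ {p : W × W}, IsPair Q p.1 p.2 → ∀ {a}, Pp p a → φ p (-a) = (φ p a)⁻¹ := fun {p} hp {a} ha => by
    refine (inv_eq_of_mul_eq_one_right ?_).symm
    rw [← hadd hp ha (hPneg ha), add_neg_cancel, hzero hp]
  have hcube : ∀ {p : W × W}, IsPair Q p.1 p.2 → ∀ {a}, Pp p a → φ p a * φ p a * φ p a = 1 := fun {p} hp {a} ha => by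
    rw [← hadd hp ha ha, ← hadd hp (hPadd ha ha) ha, show a + a + a = (3 : F) • a by module, h3,
      zero_smul, hzero hp]
  -- conjugation
  have hmove : ∀ {p : W × W} (hp : IsPair Q p.1 p.2) (e : E) {a b : W}, τ e * aP hp * (τ e)⁻¹ = aP hp →
      τ (e * L a * e⁻¹) = siegel (hypAdd Q) hu (hpi b) → e * φ p a * e⁻¹ = φ p b := by
    intro p hp e a b h1 h2
    show e * ⁅M p, L a⁆ * e⁻¹ = ⁅M p, L b⁆
    rw [show e * ⁅M p, L a⁆ * e⁻¹ = ⁅e * M p * e⁻¹, e * L a * e⁻¹⁆ by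
      simp only [commutatorElement_def]; group]
    exact comm_eq hc (by rw [map_mul, map_mul, map_inv, hM p hp, h1]) (h2.trans (hL b).symm)
  have hinv : ∀ {p r : W × W}, IsPair Q p.1 p.2 → IsPair Q r.1 r.2 → (p = r ∨ PPerp Q p r) →
      ∀ {a}, Pp p a → Pp r a → M r * φ p a * (M r)⁻¹ = (φ p a)⁻¹ := by
    intro p r hp hr hpr a hpa hra
    obtain ⟨au, af, ai⟩ := aP_apply hr
    rw [← hneg hp hpa]
    refine hmove hp _ ?_ ?_
    · rw [hM r hr]
      rcases hpr with rfl | hpr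
      · rw [mul_inv_cancel_right]
      · exact aP_conj hp _ (Or.inr ⟨au, af⟩) (ai _ hpr.symm.1 hpr.symm.2.2.1)
          (ai _ hpr.symm.2.1 hpr.symm.2.2.2)
    · rw [map_mul, map_mul, map_inv, hM r hr, hL, siegel_conj]
      have e1 : polar (hypAdd Q) ((-1 : F) • hE F W) (inW F a) = 0 := by rw [polar_smul_left, hpi, smul_zero]
      have e2 : polar (hypAdd Q) (hE F W) ((-1 : F) • inW F a) = 0 := by rw [← map_smul]; exact hpi _
      rw [siegel_congr (hypAdd Q) _ _ (sing_smul _ hu) e1 (au.trans (neg_one_smul F _).symm) (ai a hra.1 hra.2),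
        siegel_smul_left (hypAdd Q) (-1) hu (hpi a) (sing_smul _ hu) e2 e1]
      exact siegel_congr (hypAdd Q) _ _ _ _ rfl (by rw [neg_one_smul, map_neg])
  have hagree : ∀ {p r : W × W}, IsPair Q p.1 p.2 → IsPair Q r.1 r.2 → PPerp Q p r →
      ∀ {a}, Pp p a → Pp r a → φ p a = φ r a := by
    intro p r hp hr hpr a hpa hra
    set z := φ p a * (φ r a)⁻¹ with hz
    have hz1 : τ z = 1 := by rw [map_mul, map_inv, hlift hp hpa, hlift hr hra, mul_inv_cancel]
    have hzz : z * z = 1 := by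
      have e : M p * z * (M p)⁻¹ = z⁻¹ := by
        calc M p * z * (M p)⁻¹ = (M p * φ p a * (M p)⁻¹) * (M p * φ r a * (M p)⁻¹)⁻¹ := by
              simp only [hz]; group
          _ = (φ p a)⁻¹ * φ r a := by
              rw [hinv hp hp (Or.inl rfl) hpa hpa, hinv hr hp (Or.inr hpr.symm) hra hpa, inv_inv]
          _ = z⁻¹ := by
              rw [hz, mul_inv_rev, inv_inv]
              exact ((hcm (hpi a) (hpi a) (hlift hp hpa) (hlift hr hra)).inv_left).eq
      rw [hcen hz1, mul_inv_cancel_right] at e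
      rwa [← inv_eq_iff_mul_eq_one, eq_comm]
    have hz3 : z * z * z = 1 := by
      have e : φ p a = z * φ r a := by rw [hz, inv_mul_cancel_right]
      have e3 := hcube hp hpa
      rw [e] at e3
      have cm : Commute z (φ r a) := (hcen hz1 (φ r a)).symm
      have := cm.mul_pow 3
      simp only [pow_succ, pow_zero, one_mul] at this
      rw [e3, hcube hr hra, mul_one] at this
      exact this.symm
    rw [hzz, one_mul] at hz3
    exact mul_inv_eq_one.1 hz3
  obtain ⟨P₁, P₂, P₃, z₀, hp1, hp2, hp3, h12, h13, h23, hz0, z11, z12, z21, z22, z31, z32⟩ :=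
    exists_frame hB hn
  let Φ : W → E := fun a => φ P₂ (pproj Q P₁ a) * φ P₁ (a - pproj Q P₁ a)
  have hπ2 : ∀ a, Pp P₂ (pproj Q P₁ a) := fun a => h12.pproj a
  have hπ1 : ∀ a, Pp P₁ (a - pproj Q P₁ a) := fun a =>
    ⟨by rw [polar_sub_right, polar_pproj_fst hp1, sub_self],
      by rw [polar_sub_right, polar_pproj_snd hp1, sub_self]⟩
  have hΦlift : ∀ a, τ (Φ a) = siegel (hypAdd Q) hu (hpi a) := fun a => by
    rw [map_mul, hlift hp2 (hπ2 a), hlift hp1 (hπ1 a), siegel_mul]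
    exact siegel_congr (hypAdd Q) _ _ _ _ rfl (by rw [← map_add, add_sub_cancel])
  have hΦadd : ∀ a b, Φ (a + b) = Φ a * Φ b := fun a b => by
    show φ P₂ (pproj Q P₁ (a + b)) * φ P₁ (a + b - pproj Q P₁ (a + b)) = _
    rw [pproj_add, hadd hp2 (hπ2 a) (hπ2 b),
      show a + b - (pproj Q P₁ a + pproj Q P₁ b) = (a - pproj Q P₁ a) + (b - pproj Q P₁ b) by abel,
      hadd hp1 (hπ1 a) (hπ1 b)]
    exact (hcm (hpi _) (hpi _) (hlift hp2 (hπ2 b)) (hlift hp1 (hπ1 a))).mul_mul_mul_comm _ _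
  have hΦ1 : ∀ {a}, Pp P₁ a → Φ a = φ P₁ a := fun {a} ha => by
    show φ P₂ (pproj Q P₁ a) * φ P₁ (a - pproj Q P₁ a) = _
    rw [pproj_of_perp ha.1 ha.2, hzero hp2, one_mul, sub_zero]
  have hΦr : ∀ {r : W × W}, IsPair Q r.1 r.2 → (P₂ = r ∨ PPerp Q P₂ r) → PPerp Q P₁ r → ∀ {a}, Pp r a →
      Φ a = φ r a := by
    intro r hr h2r h1r a ha
    have hd : Pp r (a - pproj Q P₁ a) :=
      ⟨by rw [polar_sub_right, ha.1, (h1r.pproj a).1, sub_zero],
        by rw [polar_sub_right, ha.2, (h1r.pproj a).2, sub_zero]⟩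
    show φ P₂ (pproj Q P₁ a) * φ P₁ (a - pproj Q P₁ a) = _
    rw [show φ P₂ (pproj Q P₁ a) = φ r (pproj Q P₁ a) by
        rcases h2r with rfl | h2r
        · rfl
        · exact hagree hp2 hr h2r (hπ2 a) (h1r.pproj a),
      hagree hp1 hr h1r (hπ1 a) hd, ← hadd hr (h1r.pproj a) hd, add_sub_cancel]
  -- invariance under the Levi subgroup
  let Good : E → OQ Q → Prop := fun e k => τ e = hypLift Q k ∧ ∀ w, e * Φ w * e⁻¹ = Φ (k.1 w)
  let T : Subgroup (OQ Q) :=
  { carrier := {k | ∃ e, Good e k}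
    one_mem' := ⟨1, by rw [map_one, map_one], fun w => by simp⟩
    mul_mem' := by
      rintro k l ⟨e, he, he'⟩ ⟨d, hd, hd'⟩
      refine ⟨e * d, by rw [map_mul, map_mul, he, hd], fun w => ?_⟩
      rw [Subgroup.coe_mul, LinearEquiv.mul_apply, ← he', ← hd']
      group
    inv_mem' := by
      rintro k ⟨e, he, he'⟩
      refine ⟨e⁻¹, by rw [map_inv, map_inv, he], fun w => ?_⟩
      have := he' ((k⁻¹ : OQ Q).1 w)
      rw [show k.1 ((k⁻¹ : OQ Q).1 w) = w from LinearEquiv.apply_symm_apply _ _] at this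
      rw [← this]
      group }
  -- an element fixing a pair
  have hfixP : ∀ {k : OQ Q} {e : E}, τ e = hypLift Q k → ∀ {r : W × W}, IsPair Q r.1 r.2 →
      (∀ {a}, Pp r a → Φ a = φ r a) → k.1 r.1 = r.1 → k.1 r.2 = r.2 → ∀ {w}, Pp r w →
      e * Φ w * e⁻¹ = Φ (k.1 w) := by
    intro k e he r hr hΦ k1 k2 w hw
    have hkw : Pp r (k.1 w) := by
      refine ⟨?_, ?_⟩
      · rw [← k1, OQ_polar, hw.1]
      · rw [← k2, OQ_polar, hw.2]
    rw [hΦ hw, hΦ hkw]
    refine hmove hr e ?_ ?_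
    · rw [he]
      exact aP_conj hr _ (Or.inl ⟨by simp, by simp⟩) (by simp [inW, k1]) (by simp [inW, k2])
    · rw [map_mul, map_mul, map_inv, he, hL, siegel_conj]
      exact siegel_congr (hypAdd Q) _ _ _ _ (by simp) (by simp [inW])
  -- an element fixing two pairs
  have htwo : ∀ {k : OQ Q}, k ∈ EQ Q → ∀ {r s : W × W}, IsPair Q r.1 r.2 → IsPair Q s.1 s.2 →
      PPerp Q r s → (∀ {a}, Pp r a → Φ a = φ r a) → (∀ {a}, Pp s a → Φ a = φ s a) →
      k.1 r.1 = r.1 → k.1 r.2 = r.2 → k.1 s.1 = s.1 → k.1 s.2 = s.2 → k ∈ T := by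
    intro k hk r s hr hs hrs hΦr hΦs a1 a2 b1 b2
    obtain ⟨e, he⟩ := hsurj _ (EQ_hypLift_mem hk)
    refine ⟨e, he, fun w => ?_⟩
    have d1 : Pp s (pproj Q r w) := hrs.pproj w
    have d2 : Pp r (w - pproj Q r w) :=
      ⟨by rw [polar_sub_right, polar_pproj_fst hr, sub_self],
        by rw [polar_sub_right, polar_pproj_snd hr, sub_self]⟩
    conv_lhs => rw [show w = pproj Q r w + (w - pproj Q r w) by abel, hΦadd]
    rw [show e * (Φ (pproj Q r w) * Φ (w - pproj Q r w)) * e⁻¹ =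
      e * Φ (pproj Q r w) * e⁻¹ * (e * Φ (w - pproj Q r w) * e⁻¹) by group,
      hfixP he hs hΦs b1 b2 d1, hfixP he hr hΦr a1 a2 d2, ← hΦadd, ← map_add, add_sub_cancel]
  -- a commutator of elements fixing one pair
  have hone : ∀ {g h : OQ Q}, g ∈ EQ Q → h ∈ EQ Q → ∀ {r : W × W}, IsPair Q r.1 r.2 →
      (∀ {a}, Pp r a → Φ a = φ r a) →
      g.1 r.1 = r.1 → g.1 r.2 = r.2 → h.1 r.1 = r.1 → h.1 r.2 = r.2 → ⁅g, h⁆ ∈ T := by
    intro g h hg hh r hr hΦr g1 g2 h1 h2'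
    obtain ⟨a, ha⟩ := hsurj _ (EQ_hypLift_mem hg)
    obtain ⟨b, hb⟩ := hsurj _ (EQ_hypLift_mem hh)
    have he : τ ⁅a, b⁆ = hypLift Q ⁅g, h⁆ := by rw [map_commutatorElement, map_commutatorElement, ha, hb]
    have fixinv : ∀ {g : OQ Q} {x : W}, g.1 x = x → (g⁻¹ : OQ Q).1 x = x := fun {g x} e =>
      (LinearEquiv.symm_apply_eq _).2 e.symm
    have c1 : (⁅g, h⁆ : OQ Q).1 r.1 = r.1 := by
      simp only [commutatorElement_def, Subgroup.coe_mul, LinearEquiv.mul_apply, fixinv h1, fixinv g1, h1, g1]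
    have c2 : (⁅g, h⁆ : OQ Q).1 r.2 = r.2 := by
      simp only [commutatorElement_def, Subgroup.coe_mul, LinearEquiv.mul_apply, fixinv h2', fixinv g2, h2', g2]
    refine ⟨⁅a, b⁆, he, fun w => ?_⟩
    set v := pproj Q r w
    have d2 : Pp r (w - v) :=
      ⟨by rw [polar_sub_right, polar_pproj_fst hr, sub_self],
        by rw [polar_sub_right, polar_pproj_snd hr, sub_self]⟩
    have fixv : ∀ {k : OQ Q}, k.1 r.1 = r.1 → k.1 r.2 = r.2 → k.1 v = v := fun {k} e1 e2 => by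
      simp only [v, pproj, map_add, map_smul, e1, e2]
    have hcentral : ∀ {k : OQ Q} {x : E}, τ x = hypLift Q k → k.1 v = v →
        ∃ z, τ z = 1 ∧ x * Φ v * x⁻¹ = z * Φ v := by
      intro k x hx hkv
      refine ⟨x * Φ v * x⁻¹ * (Φ v)⁻¹, ?_, by group⟩
      rw [map_mul, map_mul, map_mul, map_inv, map_inv, hx, hΦlift, siegel_conj, mul_inv_eq_one]
      exact siegel_congr (hypAdd Q) _ _ _ _ (by simp) (by simp [inW, hkv])
    obtain ⟨za, hza, ea⟩ := hcentral ha (fixv g1 g2)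
    obtain ⟨zb, hzb, eb⟩ := hcentral hb (fixv h1 h2')
    have ev : ⁅a, b⁆ * Φ v * ⁅a, b⁆⁻¹ = Φ v := by
      have eb' : b⁻¹ * Φ v * b = zb⁻¹ * Φ v := by
        have e' : Φ v = b⁻¹ * (zb * Φ v) * b := by rw [← eb]; group
        have hz' := hcen hzb b⁻¹
        calc b⁻¹ * Φ v * b = zb⁻¹ * (zb * b⁻¹) * Φ v * b := by group
          _ = zb⁻¹ * (b⁻¹ * (zb * Φ v) * b) := by rw [← hz']; group
          _ = zb⁻¹ * Φ v := by rw [← e']
      have ea' : a⁻¹ * Φ v * a = za⁻¹ * Φ v := by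
        have e' : Φ v = a⁻¹ * (za * Φ v) * a := by rw [← ea]; group
        have hz' := hcen hza a⁻¹
        calc a⁻¹ * Φ v * a = za⁻¹ * (za * a⁻¹) * Φ v * a := by group
          _ = za⁻¹ * (a⁻¹ * (za * Φ v) * a) := by rw [← hz']; group
          _ = za⁻¹ * Φ v := by rw [← e']
      have ci : ∀ {z : E}, τ z = 1 → ∀ (x y : E), x * (z * y) * x⁻¹ = z * (x * y * x⁻¹) := fun {z} hz x y => by
        rw [← mul_assoc, hcen hz]; group
      have za' : τ za⁻¹ = 1 := by rw [map_inv, hza, inv_one]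
      have zb' : τ zb⁻¹ = 1 := by rw [map_inv, hzb, inv_one]
      rw [commutatorElement_def,
        show a * b * a⁻¹ * b⁻¹ * Φ v * (a * b * a⁻¹ * b⁻¹)⁻¹ =
          a * (b * (a⁻¹ * (b⁻¹ * Φ v * b) * a⁻¹⁻¹) * b⁻¹) * a⁻¹ by group,
        eb', ci zb', show a⁻¹ * Φ v * a⁻¹⁻¹ = za⁻¹ * Φ v by rw [inv_inv, ea'],
        ci zb', ci za', eb, ci zb', ci za', ci hzb, ea]
      calc zb⁻¹ * (za⁻¹ * (zb * (za * Φ v))) = zb⁻¹ * (za⁻¹ * zb) * za * Φ v := by group
        _ = Φ v := by rw [hcen hzb za⁻¹]; group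
    conv_lhs => rw [show w = v + (w - v) by abel, hΦadd]
    rw [show ⁅a, b⁆ * (Φ v * Φ (w - v)) * ⁅a, b⁆⁻¹ =
      ⁅a, b⁆ * Φ v * ⁅a, b⁆⁻¹ * (⁅a, b⁆ * Φ (w - v) * ⁅a, b⁆⁻¹) by group,
      ev, hfixP he hr hΦr c1 c2 d2, ← hΦadd]
    congr 1
    rw [map_sub, fixv c1 c2, add_sub_cancel]
  -- root groups of the first pair
  have hroot : ∀ {p r s : W × W} (hp : IsPair Q p.1 p.2), IsPair Q r.1 r.2 → IsPair Q s.1 s.2 →
      PPerp Q p r → PPerp Q p s → PPerp Q r s → Pp p z₀ → Pp r z₀ → Pp s z₀ →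
      (∀ {a}, Pp r a → Φ a = φ r a) → (∀ {a}, Pp s a → Φ a = φ s a) →
      ∀ x (hx : polar Q p.1 x = 0), siegel Q hp.1 hx ∈ T := by
    intro p r s hp hr hs hpr hps hrs pz rz sz hΦr hΦs x hx
    -- components inside one of the other pairs
    have comp : ∀ {r s : W × W}, IsPair Q r.1 r.2 → IsPair Q s.1 s.2 → PPerp Q p r → PPerp Q p s →
        PPerp Q r s → Pp r z₀ → Pp s z₀ → (∀ {a}, Pp s a → Φ a = φ s a) →
        ∀ y, ∀ hy : polar Q p.1 (pproj Q r y) = 0, siegel Q hp.1 hy ∈ T := by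
      intro r s hr hs hpr hps hrs rz sz hΦs y hy
      have one : ∀ {v : W}, (v = r.1 ∨ v = r.2) → ∀ (c : F) (hv : polar Q p.1 (c • v) = 0),
          siegel Q hp.1 hv ∈ T := by
        intro v hv c hcv
        have hv0 : Q v = 0 := by rcases hv with rfl | rfl; exacts [hr.1, hr.2.1]
        have hvz : polar Q v z₀ = 0 := by rcases hv with rfl | rfl; exacts [rz.1, rz.2]
        have hpv : polar Q p.1 v = 0 := by rcases hv with rfl | rfl; exacts [hpr.1, hpr.2.1]
        have hvs : polar Q v s.1 = 0 ∧ polar Q v s.2 = 0 := by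
          rcases hv with rfl | rfl; exacts [⟨hrs.1, hrs.2.1⟩, ⟨hrs.2.2.1, hrs.2.2.2⟩]
        set t : F := -c / (2 * Q z₀) with ht
        have hb : polar Q v (t • z₀) = 0 := by rw [polar_smul_right, hvz, smul_zero]
        have e : siegel Q hp.1 hcv = ⁅siegel Q hv0 hb, siegel Q hp.1 pz.1⁆ := by
          have hgp : (siegel Q hv0 hb).1 p.1 = p.1 := by
            rw [siegel_apply, polar_comm Q v p.1, hpv, polar_smul_left, polar_comm Q z₀ p.1, pz.1]
            simp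
          have hgz : (siegel Q hv0 hb).1 z₀ = z₀ + c • v := by
            rw [siegel_apply, hvz, polar_smul_left, polar_self_two, smul_eq_mul,
              show t * (2 * Q z₀) = -c by simp only [ht]; field_simp]
            module
          rw [commutatorElement_def, siegel_conj, siegel_congr Q _ _ hp.1
            (show polar Q p.1 (z₀ + c • v) = 0 by rw [polar_add_right, pz.1, hcv, add_zero]) hgp hgz,
            siegel_inv, siegel_mul]
          exact siegel_congr Q _ _ _ _ rfl (by abel)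
        rw [e]
        refine hone (siegel_mem_EQ Q _ _) (siegel_mem_EQ Q _ _) hs hΦs ?_ ?_ ?_ ?_
        · exact siegel_fix Q hv0 hb hvs.1 (by rw [polar_smul_left, polar_comm Q z₀ s.1, sz.1, smul_zero])
        · exact siegel_fix Q hv0 hb hvs.2 (by rw [polar_smul_left, polar_comm Q z₀ s.2, sz.2, smul_zero])
        · exact siegel_fix Q hp.1 pz.1 hps.1 ((polar_comm Q _ _).trans sz.1)
        · exact siegel_fix Q hp.1 pz.1 hps.2.1 ((polar_comm Q _ _).trans sz.2)
      have h1 : polar Q p.1 (polar Q r.2 y • r.1) = 0 := by rw [polar_smul_right, hpr.1, smul_zero]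
      have h2 : polar Q p.1 (polar Q r.1 y • r.2) = 0 := by rw [polar_smul_right, hpr.2.1, smul_zero]
      have e := mul_mem (one (Or.inl rfl) _ h1) (one (Or.inr rfl) _ h2)
      rw [siegel_mul] at e
      exact e
    -- the part orthogonal to the other two pairs
    set x' := x - pproj Q r x - pproj Q s x with hx'
    have hx'p : polar Q p.1 x' = 0 := by
      rw [hx', polar_sub_right, polar_sub_right, hx, (hpr.symm.pproj x).1, (hps.symm.pproj x).1]
      simp
    have hx'r : Pp r x' := by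
      constructor <;> rw [hx', polar_sub_right, polar_sub_right]
      · rw [polar_pproj_fst hr, (hrs.symm.pproj x).1]; simp
      · rw [polar_pproj_snd hr, (hrs.symm.pproj x).2]; simp
    have hx's : Pp s x' := by
      constructor <;> rw [hx', polar_sub_right, polar_sub_right]
      · rw [polar_pproj_fst hs, (hrs.pproj x).1]; simp
      · rw [polar_pproj_snd hs, (hrs.pproj x).2]; simp
    have m1 : siegel Q hp.1 hx'p ∈ T := htwo (siegel_mem_EQ Q _ _) hr hs hrs hΦr hΦs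
      (siegel_fix Q hp.1 hx'p hpr.1 ((polar_comm Q _ _).trans hx'r.1))
      (siegel_fix Q hp.1 hx'p hpr.2.1 ((polar_comm Q _ _).trans hx'r.2))
      (siegel_fix Q hp.1 hx'p hps.1 ((polar_comm Q _ _).trans hx's.1))
      (siegel_fix Q hp.1 hx'p hps.2.1 ((polar_comm Q _ _).trans hx's.2))
    have m2 := comp hr hs hpr hps hrs rz sz hΦs x (hpr.symm.pproj x).1
    have m3 := comp hs hr hps hpr hrs.symm sz rz hΦr x (hps.symm.pproj x).1
    have e := mul_mem (mul_mem m1 m2) m3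
    rwa [siegel_mul, siegel_mul, siegel_congr Q _ _ hp.1 hx rfl (by rw [hx']; abel)] at e
  have hΦ2 : ∀ {a}, Pp P₂ a → Φ a = φ P₂ a := fun {a} ha => hΦr hp2 (Or.inl rfl) h12 ha
  have hΦ3 : ∀ {a}, Pp P₃ a → Φ a = φ P₃ a := fun {a} ha => hΦr hp3 (Or.inr h23) h13 ha
  have hT : EQ Q ≤ T := EQ_le_of_pair hB hp1
    (hroot hp1 hp2 hp3 h12 h13 h23 ⟨z11, z12⟩ ⟨z21, z22⟩ ⟨z31, z32⟩ hΦ2 hΦ3)
    (hroot (p := (P₁.2, P₁.1)) hp1.symm hp2 hp3 h12.swap_left h13.swap_left h23 ⟨z12, z11⟩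
      ⟨z21, z22⟩ ⟨z31, z32⟩ hΦ2 hΦ3)
  -- the base
  have hdec : ∀ {a : (F × F) × W}, polar (hypAdd Q) (hE F W) a = 0 → inW F a.2 + a.1.1 • hE F W = a := by
    intro a ha
    obtain ⟨⟨x, y⟩, w⟩ := a
    have : y = 0 := by simpa using ha
    subst this
    simp [inW]
  have B : Base (hypAdd Q) τ hu :=
  { f := fun a => Φ a.2
    lift := fun {a} ha => by
      rw [hΦlift]
      conv_rhs => rw [siegel_congr (hypAdd Q) hu ha hu
        (a' := inW F a.2 + a.1.1 • hE F W) (by rw [hdec ha]; exact ha) rfl (hdec ha).symm]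
      rw [siegel_add_self (hypAdd Q) _ hu (hpi _)]
    add := fun a b _ _ => hΦadd _ _
    conj := fun e he {a} ha => by
      -- split off a Siegel transformation
      have hgf := OQ_polar (τ e) (hE F W) (hF F W)
      rw [he] at hgf
      obtain ⟨c, hc', -, s1, s2⟩ := exists_siegel_pair (u := hE F W) (y := hF F W)
        (z := (τ e).1 (hF F W)) hu (isPair_hypAdd Q).2.1
        (by rw [OQ_map_app]; exact (isPair_hypAdd Q).2.1) (isPair_hypAdd Q).2.2
        (hgf.trans (isPair_hypAdd Q).2.2)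
      have hm₀ := siegel_mem_EQ (hypAdd Q) hu hc'
      obtain ⟨m, hm⟩ := hsurj _ hm₀
      have hfe : (τ (m⁻¹ * e)).1 (hE F W) = hE F W ∧ (τ (m⁻¹ * e)).1 (hF F W) = hF F W := by
        rw [map_mul, map_inv, hm, Subgroup.coe_mul, LinearEquiv.mul_apply, LinearEquiv.mul_apply, he]
        exact ⟨(LinearEquiv.symm_apply_eq _).2 s1.symm, (LinearEquiv.symm_apply_eq _).2 s2.symm⟩
      obtain ⟨k, hk⟩ := exists_hypLift _ hfe.1 hfe.2
      obtain ⟨d, hd, hd'⟩ : k ∈ T := by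
        refine hT (mem_EQ_of_hypLift hB h2 (by omega) ?_)
        rw [hk, map_mul]
        exact mul_mem (by rw [map_inv, hm]; exact inv_mem hm₀) (hgen e)
      have hz : τ (d⁻¹ * (m⁻¹ * e)) = 1 := by rw [map_mul, map_inv, hd, ← hk, inv_mul_cancel]
      have key : (τ e).1 a = (siegel (hypAdd Q) hu hc').1 ((hypLift Q k).1 a) := by
        rw [← hm, hk, ← LinearEquiv.mul_apply, ← Subgroup.coe_mul, ← map_mul, mul_inv_cancel_left]
      have h2a : ((τ e).1 a).2 = k.1 a.2 + polar (hypAdd Q) (hE F W) ((hypLift Q k).1 a) • c.2 := by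
        rw [key, siegel_apply]; simp
      have hka : polar (hypAdd Q) (hE F W) ((hypLift Q k).1 a) = 0 := by simpa using ha
      rw [hka, zero_smul, add_zero] at h2a
      show e * Φ a.2 * e⁻¹ = Φ ((τ e).1 a).2
      rw [h2a, ← hd']
      have hz' := hcen hz (Φ a.2)
      calc e * Φ a.2 * e⁻¹
          = m * (d * ((d⁻¹ * (m⁻¹ * e)) * Φ a.2 * (d⁻¹ * (m⁻¹ * e))⁻¹) * d⁻¹) * m⁻¹ := by group
        _ = m * (d * Φ a.2 * d⁻¹) * m⁻¹ := by rw [← hz', mul_inv_cancel_right]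
        _ = d * Φ a.2 * d⁻¹ := by
          rw [hd']
          rw [(hcm hc' (hpi _) hm (hΦlift _)).eq, mul_inv_cancel_right] }
  exact B.exists_sys hA hc hsurj hu0

end Cfsg.Agent.CentralExt.OrthMult
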