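import Cfsg.Agent.CentralExt.OrthMult.Scalar
import Cfsg.Agent.CentralExt.OrthMult.Ternary
import Cfsg.Agent.CentralExt.OrthMult.Spin
import Cfsg.Agent.CentralExt.SpMult.Main
import Cfsg.Agent.Classical.ExcFive
import Cfsg.Agent.Classical.OrthFinal
import Cfsg.Agent.SchurMul.Perfect

/-!
The Schur multiplier of the orthogonal groups of odd dimension in odd characteristic.
-/

set_option autoImplicit false
set_option linter.unusedSectionVars false
set_option linter.style.haveILetI false

namespace Cfsg.Agent.CentralExt.OrthMult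

open QuadraticMap Module Cfsg.Agent.Classical Cfsg.Agent.OrthGen

universe u v w z

section Congr

variable {F : Type u} [Field F] {V : Type v} [AddCommGroup V] [Module F V] {W : Type w}
  [AddCommGroup W] [Module F W] {Q : QuadraticForm F V} {R : QuadraticForm F W}
  (e : V ≃ₗ[F] W) (h : ∀ v, R (e v) = Q v)

include h in
theorem polar_congr_equiv (x y : V) : polar R (e x) (e y) = polar Q x y := by
  simp [polar, ← map_add, h]

theorem OQCongr_apply (g : OQ Q) (x : W) : (OQCongr e h g).1 x = e (g.1 (e.symm x)) := rfl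

theorem OQCongr_siegel {x a : V} (hx : Q x = 0) (ha : polar Q x a = 0) :
    OQCongr e h (siegel Q hx ha) = siegel R (show R (e x) = 0 by rw [h, hx])
      (show polar R (e x) (e a) = 0 by rw [polar_congr_equiv e h, ha]) := by
  refine Subtype.ext (LinearEquiv.ext fun v => ?_)
  obtain ⟨v, rfl⟩ := e.surjective v
  simp [OQCongr_apply, siegel_apply, polar_congr_equiv e h, h]

theorem map_EQ_congr : (EQ Q).map (OQCongr e h).toMonoidHom = EQ R := by
  rw [EQ, MonoidHom.map_closure]
  refine le_antisymm ((Subgroup.closure_le _).2 ?_) ((Subgroup.closure_le _).2 ?_)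
  · rintro _ ⟨_, ⟨x, a, hx, ha, rfl⟩, rfl⟩
    show OQCongr e h (siegel Q hx ha) ∈ EQ R
    rw [OQCongr_siegel e h hx ha]
    exact siegel_mem_EQ R _ _
  · rintro _ ⟨x, a, hx, ha, rfl⟩
    obtain ⟨x, rfl⟩ := e.surjective x
    obtain ⟨a, rfl⟩ := e.surjective a
    have hx' : Q x = 0 := by rwa [h] at hx
    have ha' : polar Q x a = 0 := by rwa [polar_congr_equiv e h] at ha
    refine Subgroup.subset_closure ⟨siegel Q hx' ha', ⟨x, a, hx', ha', rfl⟩, ?_⟩
    exact OQCongr_siegel e h hx' ha'

/-- A system transported along an isometric equivalence. -/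
noncomputable def Sys.congr {E : Type z} [Group E] {τ : E →* OQ Q} (S : Sys Q τ) :
    Sys R ((OQCongr e h).toMonoidHom.comp τ) where
  ψ x a := S.ψ (e.symm x) (e.symm a)
  lift := fun {x a} hx ha => by
    have hx' : Q (e.symm x) = 0 := by rw [← h, e.apply_symm_apply, hx]
    have ha' : polar Q (e.symm x) (e.symm a) = 0 := by
      rw [← polar_congr_equiv e h, e.apply_symm_apply, e.apply_symm_apply, ha]
    show OQCongr e h (τ (S.ψ (e.symm x) (e.symm a))) = _
    rw [S.lift hx' ha', OQCongr_siegel e h hx' ha']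
    exact siegel_congr R _ _ _ _ (e.apply_symm_apply x) (e.apply_symm_apply a)
  add := fun {x a b} hx ha hb => by
    rw [map_add]
    exact S.add (by rw [← h, e.apply_symm_apply, hx])
      (by rw [← polar_congr_equiv e h, e.apply_symm_apply, e.apply_symm_apply, ha])
      (by rw [← polar_congr_equiv e h, e.apply_symm_apply, e.apply_symm_apply, hb])
  smul := fun {x a} c hx ha => by
    rw [map_smul, map_smul]
    exact S.smul c (by rw [← h, e.apply_symm_apply, hx])
      (by rw [← polar_congr_equiv e h, e.apply_symm_apply, e.apply_symm_apply, ha])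
  conj := fun g {x a} hx ha => by
    rw [S.conj g (by rw [← h, e.apply_symm_apply, hx])
      (by rw [← polar_congr_equiv e h, e.apply_symm_apply, e.apply_symm_apply, ha])]
    simp [OQCongr_apply]
  swap := fun {x a} hx ha hxa => by
    rw [map_neg]
    exact S.swap (by rw [← h, e.apply_symm_apply, hx]) (by rw [← h, e.apply_symm_apply, ha])
      (by rw [← polar_congr_equiv e h, e.apply_symm_apply, e.apply_symm_apply, hxa])

end Congr

variable {F : Type u} [Field F] [Finite F]

/-- The odd-dimensional space of Witt index `k`. -/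
noncomputable abbrev oddForm (F : Type u) [Field F] (k : ℕ) : QuadraticForm F (HypSpace F k F) :=
  hypExt k (QuadraticMap.sq : QuadraticForm F F)

theorem finrank_oddForm (k : ℕ) : finrank F (HypSpace F k F) = 2 * k + 1 := by
  rw [finrank_HypSpace, finrank_self]

theorem bNondeg_oddForm (h2 : (2 : F) ≠ 0) (k : ℕ) : BNondeg (oddForm F k) :=
  bNondeg_hypExt k (goodCore_sq h2).nondeg

/-- In dimension five a perfect central extension has kernel of order at most two. -/
theorem card_ker_le_two_five (hodd : Odd (Nat.card F)) {E : Type z} [Group E] [Group.IsPerfect E]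
    (τ : E →* OQ (oddForm F 2)) (hrange : τ.range = EQ (oddForm F 2))
    (hc : τ.ker ≤ Subgroup.center E) : Nat.card τ.ker ≤ 2 := by
  classical
  haveI : Fintype F := Fintype.ofFinite F
  have h2 : (2 : F) ≠ 0 := two_ne_zero_of_odd hodd
  have hodd' : Odd (Fintype.card F) := by rwa [← Nat.card_eq_fintype_card]
  have hB := bNondeg_oddForm h2 2
  have hEQ := EQ_eq_commutator hB h2 (by rw [finrank_oddForm])
  let Φ := (isometryGroupEquiv (Cfsg.quadFormOdd 2 F) (oddQF 2 F) (oddQF_apply 2)).trans
    (OQCongr (oddEquiv 2) (oddEquiv_spec 2))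
  let ψ : Cfsg.POmega F (Cfsg.quadFormOdd 2 F) ≃*
      EQ (oddForm F 2) ⧸ Subgroup.center (EQ (oddForm F 2)) :=
    centerQuotientEquiv ((Φ.subgroupMap _).trans (MulEquiv.subgroupCongr (by
      rw [hEQ]; exact map_commutator_top_of_equiv Φ)))
  obtain ⟨φ⟩ := Exc.nonempty_POmega_five hodd'
  have hG : SpMult.Good 2 (Fintype.card F) :=
    ⟨le_rfl, fun _ h => by rw [h] at hodd'; exact absurd hodd' (by decide), fun h => by omega⟩
  have hM := hasSchurMultiplier_congr (φ.symm.trans ψ) (SpMult.multiplier_PSp hG)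
  let τ' : E →* EQ (oddForm F 2) := τ.codRestrict _ fun x => hrange ▸ ⟨x, rfl⟩
  have hsurj : Function.Surjective τ' := by
    rintro ⟨g, hg⟩
    rw [← hrange] at hg
    obtain ⟨x, rfl⟩ := hg
    exact ⟨x, rfl⟩
  have hker : τ'.ker = τ.ker := MonoidHom.ker_codRestrict _ _ _
  set π := QuotientGroup.mk' (Subgroup.center (EQ (oddForm F 2)))
  have hst : IsStemExtension (π.comp τ') :=
    ⟨(QuotientGroup.mk'_surjective _).comp hsurj,
      Cfsg.Agent.SchurMul.ker_le_center_comp inferInstance τ' hsurj (hker ▸ hc) π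
        (QuotientGroup.ker_mk' _).le,
      by rw [(inferInstance : Group.IsPerfect E).commutator_eq_top]; exact le_top⟩
  have hdvd := card_ker_dvd_of_hasSchurMultiplier hM hst
  rw [Nat.card_congr Multiplicative.toAdd, Nat.card_zmod] at hdvd
  have hd2 : Nat.card (π.comp τ').ker ∣ 2 := hdvd.trans (Nat.gcd_dvd_left _ _)
  haveI : Finite (π.comp τ').ker := Nat.finite_of_card_ne_zero (fun e => by rw [e] at hd2; norm_num at hd2)
  have hle : τ.ker ≤ (π.comp τ').ker := fun x hx => by
    rw [← hker] at hx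
    rw [MonoidHom.mem_ker, MonoidHom.comp_apply, MonoidHom.mem_ker.1 hx, map_one]
  exact (Subgroup.card_le_of_le hle).trans (Nat.le_of_dvd two_pos hd2)

/-- A perfect central extension with a system of Siegel lifts has kernel of order at most two. -/
theorem card_ker_le_two (hodd : Odd (Nat.card F)) :
    ∀ (k : ℕ) (E : Type z) [Group E] [Group.IsPerfect E] (τ : E →* OQ (oddForm F (k + 2))),
      τ.range = EQ (oddForm F (k + 2)) → τ.ker ≤ Subgroup.center E →
      Nonempty (Sys (oddForm F (k + 2)) τ) → Nat.card τ.ker ≤ 2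
  | 0, E, _, _, τ, hr, hc, _ => card_ker_le_two_five hodd τ hr hc
  | k + 1, E, _, _, τ, hr, hc, ⟨S⟩ => by
    have h2 : (2 : F) ≠ 0 := two_ne_zero_of_odd hodd
    set e : HypSpace F (k + 2 + 1) F ≃ₗ[F] (F × F) × HypSpace F (k + 2) F := hypSplit (k + 2)
    have he : ∀ x, hypAdd (oddForm F (k + 2)) (e x) = oddForm F (k + 2 + 1) x := hypSplit_spec _ _
    set τ' := (OQCongr e he).toMonoidHom.comp τ with hτ'
    have hker : τ'.ker = τ.ker := by
      ext x; simp [hτ', MonoidHom.mem_ker]
    have hrange : τ'.range = EQ (hypAdd (oddForm F (k + 2))) := by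
      rw [hτ', MonoidHom.range_comp, hr, map_EQ_congr]
    obtain ⟨L, π, hL, hπr, hπc, hle, hiff, hS⟩ := descend (τ := τ') (bNondeg_oddForm h2 _) h2
      (by rw [finrank_oddForm]; omega) (fun x => hrange ▸ ⟨x, rfl⟩) (hker ▸ hc) (S.congr e he)
    haveI := hL
    have hih := card_ker_le_two hodd k L π hπr hπc hS
    have hπ : π.ker = τ'.ker.subgroupOf L := by
      ext x; simp [MonoidHom.mem_ker, Subgroup.mem_subgroupOf, hiff]
    rw [hπ, Nat.card_congr (Subgroup.subgroupOfEquivOfLe hle).toEquiv, hker] at hih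
    exact hih

/-- The multiplier of the Eichler group in odd dimension at least seven. -/
theorem multiplier_EQ_odd (hodd : Odd (Nat.card F)) (k : ℕ)
    (hk : Nat.card F = 3 → 1 ≤ k) :
    HasCyclicSchurMultiplier (EQ (hypAdd (oddForm F (k + 2)))) 2 := by
  classical
  have h2 : (2 : F) ≠ 0 := two_ne_zero_of_odd hodd
  set Q := oddForm F (k + 2)
  have hfr : finrank F (HypSpace F (k + 2) F) = 2 * (k + 2) + 1 := finrank_oddForm _
  have hB : BNondeg Q := bNondeg_oddForm h2 _
  have h2p : HasTwoPairs Q := hasTwoPairs_hypExt k _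
  have hA : Amb (hypAdd Q) := amb_hypAdd hB h2 (by omega)
  haveI : Finite ((F × F) × HypSpace F (k + 2) F) := Module.finite_of_finite F
  haveI : Finite (OQ (hypAdd Q)) := Finite.of_injective (fun g => (g.1 : _ → _))
    fun x y h => Subtype.ext (LinearEquiv.ext (congrFun h))
  have hperf : ⁅EQ (hypAdd Q), EQ (hypAdd Q)⁆ = EQ (hypAdd Q) := (EQ_perfect hB.qNondeg h2p).symm
  haveI hP : Group.IsPerfect (EQ (hypAdd Q)) := Subgroup.isPerfect_iff.2 hperf
  obtain ⟨W, iW, fW, θ, hθ, ⟨i⟩⟩ := exists_schurCover (EQ (hypAdd Q))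
  haveI := Cfsg.Agent.SchurMul.perfect_of_stem hP hθ
  set τ : W →* OQ (hypAdd Q) := (EQ (hypAdd Q)).subtype.comp θ with hτ
  have hker : τ.ker = θ.ker := MonoidHom.ker_comp_of_injective _ _ (Subgroup.subtype_injective _)
  have hsurj : ∀ g ∈ EQ (hypAdd Q), ∃ x, τ x = g := fun g hg => by
    obtain ⟨x, hx⟩ := hθ.1 ⟨g, hg⟩
    exact ⟨x, by rw [hτ, MonoidHom.comp_apply, hx]; rfl⟩
  have hgen : ∀ x, τ x ∈ EQ (hypAdd Q) := fun x => (θ x).2
  have hc : τ.ker ≤ Subgroup.center W := hker ▸ hθ.2.1
  have hS : Nonempty (Sys (hypAdd Q) τ) := by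
    by_cases h3 : Nat.card F = 3
    · exact exists_sys_ternary hB h3 (by have := hk h3; omega) hgen hc hsurj
    · refine exists_sys_of_three_lt hA ?_ hc hsurj
      have := Finite.one_lt_card (α := F)
      rcases hodd with ⟨j, hj⟩
      omega
  obtain ⟨L, π, hL, hπr, hπc, hle, hiff, hS'⟩ := descend hB h2 (by omega) hgen hc hS.some
  haveI := hL
  have hub := card_ker_le_two hodd k L π hπr hπc hS'
  have hπ : π.ker = τ.ker.subgroupOf L := by
    ext x; simp [MonoidHom.mem_ker, Subgroup.mem_subgroupOf, hiff]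
  rw [hπ, Nat.card_congr (Subgroup.subgroupOfEquivOfLe hle).toEquiv, hker, Nat.card_congr i.toEquiv] at hub
  -- the lower bound
  obtain ⟨Δ, δ, hδ, hne⟩ := exists_spin_cover (bNondeg_hypAdd hB) h2
    (by rw [finrank_prod, finrank_prod, finrank_self]; omega) hperf
  have hdvd := card_ker_dvd_schurMult hδ
  have hpos : 0 < Nat.card (schurMult (EQ (hypAdd Q))) := Nat.card_pos
  have hne1 : Nat.card (schurMult (EQ (hypAdd Q))) ≠ 1 := fun e => by
    rw [e, Nat.dvd_one] at hdvd
    exact hne (Subgroup.card_eq_one.1 hdvd)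
  have hcard : Nat.card (schurMult (EQ (hypAdd Q))) = 2 := by omega
  exact (hasCyclicSchurMultiplier_iff 2).2 ⟨isCyclic_of_prime_card (p := 2) hcard, hcard⟩

/-- The centre of the Eichler group in odd dimension is trivial. -/
theorem card_center_odd (hodd : Odd (Nat.card F)) (k : ℕ) :
    Nat.card (Subgroup.center (EQ (hypAdd (oddForm F (k + 2))))) = 1 := by
  have h2 : (2 : F) ≠ 0 := two_ne_zero_of_odd hodd
  have hB := bNondeg_oddForm h2 (k + 2)
  have hB' := bNondeg_hypAdd hB
  haveI : Finite ((F × F) × HypSpace F (k + 2) F) := Module.finite_of_finite F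
  have hn : finrank F ((F × F) × HypSpace F (k + 2) F) = 2 * (k + 2) + 3 := by
    rw [finrank_prod, finrank_prod, finrank_self, finrank_oddForm]; omega
  refine card_center_EQ_one hB (hasTwoPairs_hypExt k _) fun hm => ?_
  have hR := OrthGen.RQ_eq_top hB' (notExceptional_of_two_ne_zero (Q := hypAdd (oddForm F (k + 2))) h2)
  rw [EQ_eq_commutator hB' h2 (by omega), commutator_eq_ker_sgnHom h2 hB' (by omega) hR,
    MonoidHom.mem_ker] at hm
  have hd := congrArg Prod.fst hm
  change dickson (negQ (hypAdd (oddForm F (k + 2)))) = 1 at hd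
  rw [dickson_neg _ h2 (fun _ => rfl), hn, neg_one_pow_eq_one_iff_even (by decide)] at hd
  exact absurd hd (by simp [Nat.even_add_one, parity_simps])

end Cfsg.Agent.CentralExt.OrthMult
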