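import Cfsg.Agent.CentralExt.OrthMult.Extend

/-!
A system of Siegel lifts exists over fields with more than three elements: commutators with a
lift of a torus element give the invariant complement.
-/

set_option autoImplicit false
set_option linter.unusedSectionVars false

namespace Cfsg.Agent.CentralExt.OrthMult

open QuadraticMap Module Cfsg.Agent.Classical Cfsg.Agent.OrthGen
open scoped commutatorElement

universe u v w

variable {F : Type u} [Field F] {V : Type v} [AddCommGroup V] [Module F V]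
  {Q : QuadraticForm F V} {E : Type w} [Group E]

/-- An isometry fixing a singular vector and trivial on its orthogonal modulo it is a Siegel
transformation. -/
theorem exists_siegel_of_fix {u f : V} (h : IsPair Q u f) (g : OQ Q)
    (hu : (g : V ≃ₗ[F] V) u = u)
    (hperp : ∀ v, polar Q u v = 0 → ∃ k : F, (g : V ≃ₗ[F] V) v = v + k • u) :
    ∃ (c : V) (hc : polar Q u c = 0), g = siegel Q h.1 hc := by
  obtain ⟨c, hc, -, s1, s2⟩ := exists_siegel_pair (u := u) (y := f) (z := (g : V ≃ₗ[F] V) f) h.1 h.2.1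
    (by rw [OQ_map_app, h.2.1]) h.2.2 (by
      have e := OQ_polar g u f
      rwa [hu, h.2.2] at e)
  refine ⟨c, hc, ?_⟩
  have huu : polar Q u u = 0 := polar_self_of_sing h.1
  have hff : polar Q f f = 0 := polar_self_of_sing h.2.1
  have key : ∀ v, polar Q u v = 0 → polar Q f v = 0 →
      (g : V ≃ₗ[F] V) v = (siegel Q h.1 hc : V ≃ₗ[F] V) v := by
    intro v huv hfv
    obtain ⟨k, hk⟩ := hperp v huv
    have e := (OQ_polar g f v).trans hfv
    rw [← s2, hk, siegel_apply, h.2.2] at e
    simp only [polar_add_right, polar_smul_right, polar_add_left, polar_sub_left, polar_smul_left,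
      huv, hfv, huu, polar_comm Q f u, h.2.2, polar_comm Q c u, hc, smul_eq_mul, one_mul, mul_zero,
      mul_one, sub_zero, zero_add, add_zero] at e
    rw [hk, siegel_apply, huv, zero_smul, add_zero, mul_zero, zero_smul, sub_zero,
      show k = -polar Q c v by linear_combination e, neg_smul, sub_eq_add_neg]
  ext v
  set a := v - (polar Q f v • u + polar Q u v • f) with ha
  have hua : polar Q u a = 0 := by
    simp [a, polar_sub_right, polar_add_right, polar_smul_right, huu, h.2.2]
  have hfa : polar Q f a = 0 := by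
    simp [a, polar_sub_right, polar_add_right, polar_smul_right, hff, polar_comm Q f u, h.2.2]
  have hv : v = a + (polar Q f v • u + polar Q u v • f) := by rw [ha, sub_add_cancel]
  rw [hv, map_add, map_add, map_add, map_add, map_smul, map_smul, map_smul, map_smul, key a hua hfa,
    hu, s1, s2]

/-- An element whose square is not one. -/
theorem exists_sq_ne_one [Finite F] (hq : 3 < Nat.card F) : ∃ s : F, s ≠ 0 ∧ s * s ≠ 1 := by
  classical
  have := Fintype.ofFinite F
  obtain ⟨s, -, hs⟩ := Finset.exists_mem_notMem_of_card_lt_card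
    (s := ({0, 1, -1} : Finset F)) (t := Finset.univ)
    (Finset.card_le_three.trans_lt (by rwa [Finset.card_univ, ← Nat.card_eq_fintype_card]))
  simp only [Finset.mem_insert, Finset.mem_singleton, not_or] at hs
  exact ⟨s, hs.1, fun h => (mul_self_eq_one_iff.1 h).elim hs.2.1 hs.2.2⟩

variable [FiniteDimensional F V] [Finite F]

/-- An element of the Eichler group scaling a singular vector. -/
theorem exists_torus (hA : Amb Q) (hq : 3 < Nat.card F) {u f : V} (h : IsPair Q u f) :
    ∃ (g : OQ Q) (t : F), g ∈ EQ Q ∧ t ≠ 1 ∧ (g : V ≃ₗ[F] V) u = t • u ∧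
      ∀ v, polar Q u v = 0 → ∃ k : F, (g : V ≃ₗ[F] V) v = v + k • u := by
  obtain ⟨s, hs0, hs⟩ := exists_sq_ne_one hq
  have huu : polar Q u u = 0 := polar_self_of_sing h.1
  have hff : polar Q f f = 0 := polar_self_of_sing h.2.1
  have h1 : Q (u + f) = 1 := by rw [qf_add, h.1, h.2.1, h.2.2]; simp
  have h2 : Q (s • u + s⁻¹ • f) = 1 := by
    rw [qf_add, sing_smul s h.1, sing_smul _ h.2.1, polar_smul_left, polar_smul_right, h.2.2]
    simp [hs0]
  have n1 : Q (u + f) ≠ 0 := by rw [h1]; exact one_ne_zero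
  have n2 : Q (s • u + s⁻¹ • f) ≠ 0 := by rw [h2]; exact one_ne_zero
  set g := reflQ Q _ n1 * reflQ Q _ n2
  have hgv : ∀ v, polar Q u v = 0 →
      (g : V ≃ₗ[F] V) v = v + ((s⁻¹ * s⁻¹ - 1) * polar Q f v) • u := by
    intro v hv
    simp only [g, Subgroup.coe_mul, LinearEquiv.mul_apply, reflQ_apply, h1, h2, inv_one, one_mul,
      polar_add_left, polar_add_right, polar_sub_right, polar_smul_left, polar_smul_right, hv, huu, hff,
      h.2.2, polar_comm Q f u, smul_eq_mul]
    match_scalars <;> field_simp <;> ring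
  refine ⟨g, s⁻¹ * s⁻¹, reflQ_mul_mem_EQ hA.bn (hasTwoPairs_of_five_le hA.bn (by have := hA.dim; omega))
    n1 n2 (h1.trans h2.symm), fun e => hs (by field_simp at e; linear_combination -e), ?_,
    fun v hv => ⟨_, hgv v hv⟩⟩
  rw [hgv u huu, polar_comm Q f u, h.2.2, mul_one, sub_smul, one_smul, add_sub_cancel]

/-- Over more than three elements there is a system of Siegel lifts. -/
theorem exists_sys_of_three_lt {τ : E →* OQ Q} (hA : Amb Q) (hq : 3 < Nat.card F)
    (hc : τ.ker ≤ Subgroup.center E) (hsurj : ∀ g ∈ EQ Q, ∃ e, τ e = g) :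
    Nonempty (Sys Q τ) := by
  classical
  have h2p : HasTwoPairs Q := hasTwoPairs_of_five_le hA.bn (by have := hA.dim; omega)
  obtain ⟨u, f, -, -, hp, -⟩ := id h2p
  have hu0 := hp.ne_zero
  obtain ⟨g, t, hg, ht, hgu, hgv⟩ := exists_torus hA hq hp
  obtain ⟨m₀, hm₀⟩ := hsurj g hg
  choose! L hL using fun a (h : polar Q u a = 0) => hsurj _ (siegel_mem_EQ Q hp.1 h)
  have hsm : ∀ (c : F) {a}, polar Q u a = 0 → polar Q u (c • a) = 0 := fun c {a} ha => by
    rw [polar_smul_right, ha, smul_zero]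
  -- the commutator with the torus element
  have hcomm : ∀ {a : V} (ha : polar Q u a = 0) {x : E}, τ x = siegel Q hp.1 ha →
      τ ⁅m₀, x⁆ = siegel Q hp.1 (hsm (t - 1) ha) := by
    intro a ha x hx
    rw [map_commutatorElement, hm₀, hx, commutatorElement_def, siegel_conj]
    obtain ⟨k, hk⟩ := hgv a ha
    have e1 : polar Q u (t • a) = 0 := hsm t ha
    have e2 : polar Q u (t • a + (t * k) • u) = 0 := by
      rw [polar_add_right, e1, polar_smul_right, polar_self_of_sing hp.1, smul_zero, add_zero]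
    have e3 : polar Q (t • u) (a + k • u) = 0 := by
      rw [polar_smul_left, polar_add_right, ha, polar_smul_right, polar_self_of_sing hp.1, smul_zero,
        add_zero, smul_zero]
    rw [siegel_congr Q _ _ (sing_smul t hp.1) e3 hgu hk,
      siegel_smul_left Q t hp.1 (a := a + k • u) (by
        rw [polar_add_right, ha, polar_smul_right, polar_self_of_sing hp.1, smul_zero, add_zero])
        (sing_smul t hp.1) (hsm t (by
          rw [polar_add_right, ha, polar_smul_right, polar_self_of_sing hp.1, smul_zero, add_zero])) e3,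
      siegel_congr Q hp.1 _ hp.1 e2 rfl (by rw [smul_add, smul_smul]),
      siegel_add_self Q (t * k) hp.1 e1, siegel_inv, siegel_mul]
    exact siegel_congr _ _ _ _ _ rfl (by rw [sub_smul, one_smul, sub_eq_add_neg])
  set c₀ := (t - 1)⁻¹
  have hc₀ : (t - 1) * c₀ = 1 := mul_inv_cancel₀ (sub_ne_zero.2 ht)
  have hlift : ∀ {a : V} (ha : polar Q u a = 0), τ ⁅m₀, L (c₀ • a)⁆ = siegel Q hp.1 ha := fun {a} ha => by
    rw [hcomm (hsm c₀ ha) (hL _ (hsm c₀ ha))]
    exact siegel_congr _ _ _ _ _ rfl (by rw [smul_smul, hc₀, one_smul])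
  have hcm : ∀ {a b : V} (ha : polar Q u a = 0) (hb : polar Q u b = 0) {x y : E},
      τ x = siegel Q hp.1 ha → τ y = siegel Q hp.1 hb → Commute x y := fun {a b} ha hb {x y} hx hy =>
    commute_lifts hA hc hsurj hp.1 hu0 ha hb hx hy
  have B : Base Q τ hp.1 :=
  { f := fun a => ⁅m₀, L (c₀ • a)⁆
    lift := hlift
    add := fun a b ha hb => by
      show ⁅m₀, L (c₀ • (a + b))⁆ = ⁅m₀, L (c₀ • a)⁆ * ⁅m₀, L (c₀ • b)⁆
      have hab : polar Q u (a + b) = 0 := by rw [polar_add_right, ha, hb, add_zero]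
      rw [comm_eq hc (rfl : τ m₀ = τ m₀) (show τ (L (c₀ • (a + b))) = τ (L (c₀ • a) * L (c₀ • b)) by
        rw [map_mul, hL _ (hsm _ hab), hL _ (hsm _ ha), hL _ (hsm _ hb), siegel_mul]
        exact siegel_congr _ _ _ _ _ rfl (smul_add _ _ _))]
      have e := (hcm (hsm c₀ ha) hb (hL _ (hsm c₀ ha)) (hlift hb)).eq
      rw [show ⁅m₀, L (c₀ • a) * L (c₀ • b)⁆ =
        ⁅m₀, L (c₀ • a)⁆ * (L (c₀ • a) * ⁅m₀, L (c₀ • b)⁆ * (L (c₀ • a))⁻¹) by
          simp only [commutatorElement_def]; group, e, mul_inv_cancel_right]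
    conj := fun e he {a} ha => by
      show e * ⁅m₀, L (c₀ • a)⁆ * e⁻¹ = ⁅m₀, L (c₀ • (τ e : V ≃ₗ[F] V) a)⁆
      have hea : ∀ {a}, polar Q u a = 0 → polar Q u ((τ e : V ≃ₗ[F] V) a) = 0 := fun {a} ha => by
        rw [← he, OQ_polar, ha]
      -- the conjugate of the torus element differs by a Siegel transformation
      obtain ⟨c, hc', hk⟩ := exists_siegel_of_fix hp (τ e * g * (τ e)⁻¹ * g⁻¹) (by
        have h1 : ((g⁻¹ : OQ Q) : V ≃ₗ[F] V) u = t⁻¹ • u := by
          have ht0 : t ≠ 0 := by
            rintro rfl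
            rw [zero_smul] at hgu
            exact hu0 ((LinearEquiv.map_eq_zero_iff _).1 hgu)
          refine (LinearEquiv.symm_apply_eq _).2 ?_
          rw [map_smul, hgu, smul_smul, inv_mul_cancel₀ ht0, one_smul]
        have h2 : (((τ e)⁻¹ : OQ Q) : V ≃ₗ[F] V) u = u := (LinearEquiv.symm_apply_eq _).2 he.symm
        simp only [Subgroup.coe_mul, LinearEquiv.mul_apply, h1, map_smul, h2, hgu, he, smul_smul]
        have ht0 : t ≠ 0 := by
          rintro rfl
          rw [zero_smul] at hgu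
          exact hu0 ((LinearEquiv.map_eq_zero_iff _).1 hgu)
        rw [inv_mul_cancel₀ ht0, one_smul]) (fun v hv => by
        have ht0 : t ≠ 0 := by
          rintro rfl
          rw [zero_smul] at hgu
          exact hu0 ((LinearEquiv.map_eq_zero_iff _).1 hgu)
        set w := ((g⁻¹ : OQ Q) : V ≃ₗ[F] V) v
        have hgw : (g : V ≃ₗ[F] V) w = v := LinearEquiv.apply_symm_apply _ _
        have hw : polar Q u w = 0 := by
          have := OQ_polar g u w
          rw [hgw, hgu, polar_smul_left, hv, smul_zero] at this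
          exact this.symm
        obtain ⟨k₁, hk₁⟩ := hgv w hw
        set w' := (((τ e)⁻¹ : OQ Q) : V ≃ₗ[F] V) w
        have hew : (τ e : V ≃ₗ[F] V) w' = w := LinearEquiv.apply_symm_apply _ _
        have hw' : polar Q u w' = 0 := by
          have := OQ_polar (τ e) u w'
          rw [hew, he, hw] at this
          exact this.symm
        obtain ⟨k₂, hk₂⟩ := hgv w' hw'
        refine ⟨k₂ - k₁, ?_⟩
        rw [Subgroup.coe_mul, Subgroup.coe_mul, Subgroup.coe_mul, LinearEquiv.mul_apply,
          LinearEquiv.mul_apply, LinearEquiv.mul_apply]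
        show (τ e : V ≃ₗ[F] V) ((g : V ≃ₗ[F] V) w') = _
        rw [hk₂, map_add, map_smul, hew, he, ← hgw, hk₁]
        module)
      obtain ⟨m, hm⟩ := hsurj _ (siegel_mem_EQ Q hp.1 hc')
      have hem : τ (e * m₀ * e⁻¹) = τ (m * m₀) := by
        rw [map_mul, map_mul, map_inv, map_mul, hm₀, hm, ← hk]
        group
      have hex : τ (e * L (c₀ • a) * e⁻¹) = τ (L (c₀ • (τ e : V ≃ₗ[F] V) a)) := by
        rw [map_mul, map_mul, map_inv, hL _ (hsm _ ha), siegel_conj, hL _ (hsm _ (hea ha))]
        exact siegel_congr _ _ _ _ _ he (by rw [map_smul])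
      rw [show e * ⁅m₀, L (c₀ • a)⁆ * e⁻¹ = ⁅e * m₀ * e⁻¹, e * L (c₀ • a) * e⁻¹⁆ by
        simp only [commutatorElement_def]; group, comm_eq hc hem hex]
      set x := L (c₀ • (τ e : V ≃ₗ[F] V) a)
      rw [show ⁅m * m₀, x⁆ = m * ⁅m₀, x⁆ * m⁻¹ * ⁅m, x⁆ by simp only [commutatorElement_def]; group,
        (hcm hc' (hea ha) hm (hlift (hea ha))).eq, mul_inv_cancel_right,
        (commutatorElement_eq_one_iff_commute).2 (hcm hc' (hsm _ (hea ha)) hm (hL _ (hsm _ (hea ha)))),
        mul_one] }
  exact B.exists_sys hA hc hsurj hu0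

end Cfsg.Agent.CentralExt.OrthMult
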